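import Cfsg.Agent.GeomClasses.Aschbacher.Monomial

/-! # The abelian socle case -/

set_option autoImplicit false
set_option maxHeartbeats 400000

namespace Cfsg.Agent.GeomClasses.Asch

open Matrix Cfsg.Geo

variable {F : Type*} [Field F] [Fintype F] {n : ℕ}

theorem abelian_case (hn : 3 ≤ n) {K M : Subgroup (GL (Fin n) F)} (hM : NormalisedBy K M)
    (hZM : scalars (Fin n) F ≤ M) (hMZ : M ≠ scalars (Fin n) F)
    (hmin : ∀ N, NormalisedBy K N → scalars (Fin n) F ≤ N → N ≤ M → N = scalars (Fin n) F ∨ N = M)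
    (hfull : ∀ N, NormalisedBy K N → ¬ N ≤ scalars (Fin n) F → Full N)
    (hab : ⁅M, M⁆ ≤ scalars (Fin n) F) : Good K := by
  classical
  haveI : Nonempty (Fin n) := ⟨⟨0, by omega⟩⟩
  obtain ⟨r, R, h⟩ := exists_stData hn hM hZM hMZ hmin hfull hab
  by_cases h24 : r = 2 ∧ ¬ 4 ∣ Fintype.card F - 1
  · obtain ⟨rfl, h4⟩ := h24
    exact h.good_average hn h4
  set z := r * Nat.gcd 2 r with hzdef
  have hz : z ∣ Fintype.card F - 1 := by
    rcases h.prime.eq_two_or_odd with rfl | ho
    · rw [not_and, not_not] at h24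
      rw [hzdef, Nat.gcd_self]
      exact h24 rfl
    · rw [hzdef, show Nat.gcd 2 r = 1 from (Nat.coprime_primes Nat.prime_two h.prime).mpr (by omega), mul_one]
      exact h.dvd
  obtain ⟨P, hP⟩ := h.monomial hn hz
  obtain ⟨p, hp⟩ := CharP.exists F
  haveI := hp
  obtain ⟨e, hpp, hcard⟩ := FiniteField.card F p
  haveI : Fact p.Prime := ⟨hpp⟩
  have hrp : r ≠ p := fun hh => h.ne_zero (by rw [hh]; exact CharP.cast_eq_zero F p)
  have hbig : ∀ d, 0 < d → d < (e : ℕ) → ¬ ∀ u : Fˣ, (u : F) ^ p ^ d = u := by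
    intro d hdpos hd hall
    obtain ⟨g, hg⟩ := IsCyclic.exists_generator (α := Fˣ)
    have ho : orderOf g = p ^ (e : ℕ) - 1 := by
      rw [orderOf_eq_card_of_forall_mem_zpowers hg, Nat.card_eq_fintype_card, Fintype.card_units, hcard]
    have h1 : g ^ (p ^ d - 1) = 1 := by
      have hgp : g ^ (p ^ d - 1) * g = g := by
        rw [← pow_succ, show p ^ d - 1 + 1 = p ^ d by have := Nat.one_le_pow d p hpp.pos; omega]
        exact Units.ext (by rw [Units.val_pow_eq_pow_val]; exact hall g)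
      exact mul_eq_right.mp hgp
    have h2 := orderOf_dvd_of_pow_eq_one h1
    rw [ho] at h2
    have h4 : p ^ d < p ^ (e : ℕ) := Nat.pow_lt_pow_right hpp.one_lt hd
    have h5 := Nat.one_le_pow d p hpp.pos
    have := Nat.one_lt_pow hdpos.ne' hpp.one_lt
    have := Nat.le_of_dvd (by omega) h2
    omega
  by_cases hsub : ∃ d, 0 < d ∧ d < (e : ℕ) ∧ z ∣ p ^ d - 1
  · obtain ⟨d, hd0, hde, hzd⟩ := hsub
    let F₀ : Subfield F := RingHom.eqLocusField (iterateFrobenius F p d) (RingHom.id F)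
    have hmem : ∀ x : F, x ∈ F₀ ↔ x ^ p ^ d = x := fun x => by
      show iterateFrobenius F p d x = x ↔ _
      rw [iterateFrobenius_def]
    refine good_of_realisable h.full h.norm (F₀ := F₀) (fun htop => hbig d hd0 hde fun u => (hmem _).mp (htop ▸ trivial))
      ⟨P⁻¹, ?_⟩
    rintro _ ⟨x, hx, rfl⟩ i j
    obtain ⟨π, χ, -, hχ, hent⟩ := hP x hx
    have := hent i j
    rw [Units.val_mul, Units.val_mul] at this
    rw [inv_inv, this]
    split_ifs
    · rw [hmem]
      obtain ⟨k, hk⟩ := hzd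
      have hk1 : (χ j) ^ (p ^ d - 1) = 1 := by rw [hk, pow_mul, hχ, one_pow]
      calc (χ j) ^ p ^ d = χ j ^ (p ^ d - 1 + 1) := by
            rw [Nat.sub_add_cancel (Nat.one_le_pow d p hpp.pos)]
        _ = χ j := by rw [pow_succ, hk1, one_mul]
    · exact zero_mem F₀
  push_neg at hsub
  have hz' : z ∣ p ^ (e : ℕ) - 1 := hcard ▸ hz
  have hZc : Nat.card (Subgroup.center R) = z := by
    rw [h.card_center, Nat.gcd_comm]; exact Nat.gcd_eq_left hz
  have hmin' : IsMinimalFieldFor z p (e : ℕ) F := ⟨hpp, hp, hcard, hz', fun d h1 h2 => hsub d h1 h2⟩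
  obtain ⟨m, hm1, hnm, hR⟩ := h.card hn
  have hpodd : r = 2 → p % 2 = 1 := fun h2 => hpp.eq_two_or_odd.resolve_left fun hp2 => hrp (h2.trans hp2.symm)
  have hcases : (Odd (e : ℕ) ∧ (r = 2 → (e : ℕ) = 1)) ∨ ∃ k, (e : ℕ) = 2 * k ∧ 0 < k ∧ z ∣ p ^ k + 1 := by
    have hr2 : r = 2 → (e : ℕ) = 1 ∨ ((e : ℕ) = 2 ∧ 4 ∣ p + 1) := by
      intro h2
      have hp2 := hpodd h2
      have hz4 : z = 4 := by rw [hzdef, h2]; rfl
      rcases (show (e : ℕ) = 1 ∨ 2 ≤ (e : ℕ) by have := e.pos; omega) with he | he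
      · exact Or.inl he
      right
      have hn4 : ¬ 4 ∣ p - 1 := fun h4 => hsub 1 one_pos (by omega) (by rwa [hz4, pow_one])
      have h41 : 4 ∣ p + 1 := by omega
      refine ⟨?_, h41⟩
      by_contra hne
      refine hsub 2 two_pos (by omega) ?_
      rw [hz4, show p ^ 2 - 1 = (p + 1) * (p - 1) by simpa using Nat.sq_sub_sq p 1]
      exact h41.mul_right _
    rcases Nat.even_or_odd (e : ℕ) with ⟨k, hk⟩ | ho
    · right
      have hk0 : 0 < k := by have := e.pos; omega
      refine ⟨k, by omega, hk0, ?_⟩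
      by_cases h2 : r = 2
      · rcases hr2 h2 with he | ⟨he, h41⟩
        · omega
        · rw [show k = 1 by omega, pow_one, hzdef, h2]; exact h41
      · have hzr : z = r := by
          rw [hzdef, show Nat.gcd 2 r = 1 from (Nat.coprime_primes Nat.prime_two h.prime).mpr (Ne.symm h2), mul_one]
        rw [hzr] at hz' ⊢
        rw [show (e : ℕ) = k * 2 by omega, pow_mul, show (p ^ k) ^ 2 - 1 = (p ^ k + 1) * (p ^ k - 1) by
          simpa using Nat.sq_sub_sq (p ^ k) 1] at hz'
        exact (h.prime.dvd_mul.mp hz').resolve_right (hzr ▸ hsub k hk0 (by omega))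
    · refine Or.inl ⟨ho, fun h2 => ?_⟩
      rcases hr2 h2 with he | ⟨he, -⟩
      · exact he
      · rw [he] at ho; exact absurd ho (by decide)
  rcases hcases with ⟨ho, he1⟩ | ⟨k, hk, hk0, hzk⟩
  · refine ⟨subgroupNormalizer R, ?_, fun g hg => ?_⟩
    · iterate 7 right
      left
      refine ⟨r, R, ⟨h.symplecticType h.norm, h.full.absIrred, p, e, hrp, hZc.symm ▸ hmin', ?_⟩, rfl⟩
      rw [hZc]
      rw [hZc] at hR
      rcases h.prime.eq_two_or_odd with rfl | hro
      · refine Or.inr (Or.inl ⟨rfl, he1 rfl, by rw [hzdef]; rfl, ?_, m, ?_⟩)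
        · rw [Fintype.card_fin]
          rcases (show m = 1 ∨ 2 ≤ m by omega) with rfl | hm2
          · omega
          · rw [hnm]; exact Nat.le_trans (by norm_num) (Nat.pow_le_pow_right two_pos hm2)
        · rw [hR, hzdef, pow_add]; rfl
      · have hzr : z = r := by
          rw [hzdef, show Nat.gcd 2 r = 1 from (Nat.coprime_primes Nat.prime_two h.prime).mpr (by omega), mul_one]
        exact Or.inl ⟨Nat.odd_iff.mpr hro, ho, hzr, m, hm1, by rw [hR, hzr, pow_add, pow_one]⟩
    · refine Subgroup.mem_normalizer_iff.mpr fun x => ⟨fun hx => h.norm g hg x hx, fun hx => ?_⟩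
      have := h.norm g⁻¹ (inv_mem hg) _ hx
      simpa [mul_assoc] using this
  -- unitary form
  let σ : F ≃+* F := iterateFrobeniusEquiv F p k
  have hσ : ∀ a, σ a = a ^ p ^ k := fun a => iterateFrobeniusEquiv_def F p k a
  have hσne : σ ≠ RingEquiv.refl F := fun hh => hbig k hk0 (by omega) fun u => by
    rw [← hσ, hh]; rfl
  have hσinv : ∀ a, σ (σ a) = a := fun a => by
    rw [hσ, hσ, ← pow_mul, ← pow_add, ← two_mul, ← hk, ← hcard]
    exact FiniteField.pow_card a
  set Q : Matrix (Fin n) (Fin n) F := (P⁻¹ : GL (Fin n) F).val with hQ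
  set B : Matrix (Fin n) (Fin n) F := Qᵀ * Q.map σ with hBdef
  have hQu : IsUnit Q.det := (Matrix.isUnit_iff_isUnit_det _).mp (P⁻¹).isUnit
  have hBu : IsUnit B.det := by
    rw [hBdef, Matrix.det_mul, Matrix.det_transpose,
      show Q.map σ = σ.toRingHom.mapMatrix Q from rfl, ← RingHom.map_det]
    exact hQu.mul (hQu.map σ.toRingHom)
  have hherm : Bᵀ.map σ = B := by
    rw [hBdef, Matrix.transpose_mul, Matrix.transpose_transpose, Matrix.map_mul]
    congr 1
    · ext i j; simp [hσinv]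
  have hfix : ∀ x ∈ R, (x : Matrix (Fin n) (Fin n) F)ᵀ * B * (x : Matrix (Fin n) (Fin n) F).map σ = B := by
    intro x hx
    obtain ⟨π, χ, hπ, hχ, hent⟩ := hP x hx
    set M' : Matrix (Fin n) (Fin n) F := ((P⁻¹ * x * P : GL (Fin n) F) : Matrix (Fin n) (Fin n) F) with hM'
    have hMM : M'ᵀ * M'.map σ = 1 := by
      ext i j
      simp only [Matrix.mul_apply, Matrix.transpose_apply, Matrix.map_apply, hent]
      rw [Finset.sum_eq_single (π i)]
      · by_cases hij : i = j
        · subst hij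
          obtain ⟨t, ht⟩ := hzk
          rw [Matrix.one_apply_eq, if_pos rfl, hσ, ← pow_succ', ht, pow_mul, hχ, one_pow]
        · rw [Matrix.one_apply_ne hij, if_neg (fun hh => hij (hπ hh)), map_zero, mul_zero]
      · intro b _ hb; rw [if_neg hb, zero_mul]
      · simp
    have hQx : Q * (x : Matrix (Fin n) (Fin n) F) = M' * Q := by
      rw [hQ, hM', ← Units.val_mul, ← Units.val_mul]; congr 1; group
    calc _ = (Q * (x : Matrix (Fin n) (Fin n) F))ᵀ * (Q * (x : Matrix (Fin n) (Fin n) F)).map σ := by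
          simp only [hBdef, Matrix.transpose_mul, Matrix.map_mul, mul_assoc]
      _ = Qᵀ * (M'ᵀ * M'.map σ) * Q.map σ := by
          rw [hQx]; simp only [Matrix.transpose_mul, Matrix.map_mul, mul_assoc]
      _ = _ := by rw [hMM, mul_one]
  exact good_of_herm hn hσne hσinv hBu hherm fun g hg => sim_of_fix h.full hBu hfix (h.norm g hg)

end Cfsg.Agent.GeomClasses.Asch
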