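import Cfsg.Agent.GeomClasses.Aschbacher.Tensor

/-! # Clifford theory: homogeneous algebras with scalar centre -/

set_option autoImplicit false

namespace Cfsg.Agent.GeomClasses.Asch

open Module Finset

variable {F : Type*} [Field F] {V : Type*} [AddCommGroup V] [Module F V] [FiniteDimensional F V]

/-- Conjugation by `g` preserves the algebra. -/
def Normalises (A : Subalgebra F (Module.End F V)) (g : (Module.End F V)ˣ) : Prop :=
  ∀ X, X ∈ A ↔ (g : Module.End F V) * X * (g⁻¹ : (Module.End F V)ˣ).val ∈ A

theorem Normalises.inv {A : Subalgebra F (Module.End F V)} {g : (Module.End F V)ˣ} (h : Normalises A g) :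
    Normalises A g⁻¹ := by
  intro X
  rw [inv_inv, h ((g⁻¹ : (Module.End F V)ˣ).val * X * (g : Module.End F V))]
  simp [mul_assoc]

variable (A : Subalgebra F (Module.End F V))

/-- The translate of an invariant subspace by a normalising element. -/
def tr (g : (Module.End F V)ˣ) (hg : Normalises A g) (U : Submodule A V) : Submodule A V where
  carrier := {v | (g⁻¹ : (Module.End F V)ˣ).val v ∈ U}
  add_mem' := fun {a b} ha hb => by
    simp only [Set.mem_setOf_eq, map_add] at ha hb ⊢
    exact add_mem ha hb
  zero_mem' := by simp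
  smul_mem' := fun a v hv => by
    simp only [Set.mem_setOf_eq] at hv ⊢
    have := U.smul_mem ⟨_, (hg.inv a.1).mp a.2⟩ hv
    convert this using 1
    show (g⁻¹ : (Module.End F V)ˣ).val ((a : Module.End F V) v) =
      ((g⁻¹ : (Module.End F V)ˣ).val * (a : Module.End F V) * ((g⁻¹)⁻¹ : (Module.End F V)ˣ).val) ((g⁻¹ : (Module.End F V)ˣ).val v)
    rw [← Module.End.mul_apply, ← Module.End.mul_apply, inv_inv, mul_assoc, mul_assoc, Units.mul_inv, mul_one]

theorem mem_tr {g : (Module.End F V)ˣ} (hg : Normalises A g) {U : Submodule A V} {v : V} :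
    v ∈ tr A g hg U ↔ (g⁻¹ : (Module.End F V)ˣ).val v ∈ U := Iff.rfl

/-- Translation as an order isomorphism. -/
def trIso (g : (Module.End F V)ˣ) (hg : Normalises A g) : Submodule A V ≃o Submodule A V where
  toFun := tr A g hg
  invFun := tr A g⁻¹ hg.inv
  left_inv := fun U => by
    ext v
    rw [mem_tr, mem_tr, ← Module.End.mul_apply, ← Units.val_mul, inv_inv, inv_mul_cancel, Units.val_one,
      Module.End.one_apply]
  right_inv := fun U => by
    ext v
    rw [mem_tr, mem_tr, ← Module.End.mul_apply, ← Units.val_mul, inv_inv, mul_inv_cancel, Units.val_one,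
      Module.End.one_apply]
  map_rel_iff' := by
    intro U U'
    refine ⟨fun h v hv => ?_, fun h v hv => h hv⟩
    have := @h ((g : Module.End F V) v) (by
      show (g⁻¹ : (Module.End F V)ˣ).val ((g : Module.End F V) v) ∈ U
      rwa [← Module.End.mul_apply, Units.inv_mul, Module.End.one_apply])
    rw [Equiv.coe_fn_mk, mem_tr, ← Module.End.mul_apply, Units.inv_mul, Module.End.one_apply] at this
    exact this

theorem isSemisimple (S : Set (Module.End F V)ˣ) (hS : ∀ g ∈ S, Normalises A g)
    (hirr : Irr ((fun g : (Module.End F V)ˣ => (g : Module.End F V)) '' S)) [Nontrivial V] :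
    IsSemisimpleModule A V := by
  haveI : IsArtinian A V := isArtinian_of_tower F inferInstance
  set T : Submodule A V := sSup {m | IsSimpleModule A m} with hT
  obtain ⟨W, hW⟩ := IsAtomic.exists_atom (Submodule A V)
  have hWT : W ≤ T := le_sSup (isSimpleModule_iff_isAtom.mpr hW)
  have hmap : ∀ g (hg : Normalises A g), tr A g hg T ≤ T := by
    intro g hg
    show trIso A g hg T ≤ T
    rw [hT, (trIso A g hg).map_sSup]
    refine iSup₂_le fun m hm => le_sSup ?_
    have : IsAtom (trIso A g hg m) := ((trIso A g hg).isAtom_iff m).mpr (isSimpleModule_iff_isAtom.mp hm)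
    exact isSimpleModule_iff_isAtom.mpr this
  have hT' : T.restrictScalars F = ⊤ := by
    refine (hirr _ ?_).resolve_left fun h => hW.1 ?_
    · rintro _ ⟨g, hg, rfl⟩ w hw
      refine hmap g (hS g hg) ?_
      rw [mem_tr, ← Module.End.mul_apply, Units.inv_mul, Module.End.one_apply]
      exact hw
    · rw [eq_bot_iff]
      intro w hw
      have := hWT hw
      rw [← Submodule.restrictScalars_mem F, h] at this
      exact this
  exact IsSemisimpleModule.of_sSup_simples_eq_top (by rwa [Submodule.restrictScalars_eq_top_iff] at hT')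

/-- A semisimple algebra whose centraliser has scalar centre is a full matrix algebra acting by blocks. -/
theorem central_type [Finite F] [Nontrivial V] [IsSemisimpleModule A V]
    (hE : ∀ X : Module.End F V, (∀ a ∈ A, Commute X a) → (∀ Y, (∀ a ∈ A, Commute Y a) → Commute X Y) →
      ∃ c : F, X = algebraMap F _ c) :
    ∃ (d e : ℕ) (φA : Matrix (Fin d) (Fin d) F →ₐ[F] Module.End F V)
      (φC : Matrix (Fin e) (Fin e) F →ₐ[F] Module.End F V), 0 < d ∧ 0 < e ∧ φA.range = A ∧
        (∀ X Y, Commute (φA X) (φC Y)) ∧ d * e = finrank F V ∧ Irr (Set.range φA ∪ Set.range φC) := by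
  classical
  haveI : Finite V := Module.finite_of_finite F
  haveI : Module.Finite A V := Module.Finite.of_finite
  haveI : IsScalarTower F A V := ⟨fun c a v => rfl⟩
  -- endomorphisms of the module, as operators
  let toF : Module.End A V → Module.End F V := fun f => f.restrictScalars F
  have htoF : ∀ f, ∀ a ∈ A, Commute (toF f) a := fun f a ha => LinearMap.ext fun v => by
    show f (a v) = a (f v)
    exact f.map_smul ⟨a, ha⟩ v
  have hof : ∀ Y, (∀ a ∈ A, Commute Y a) → ∃ f, toF f = Y := fun Y hY =>
    ⟨{ toFun := Y, map_add' := Y.map_add, map_smul' := fun a v => congrFun (congrArg DFunLike.coe (hY a.1 a.2)) v },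
      rfl⟩
  have hiso : IsIsotypic A V := by
    intro S hS
    by_contra hcon
    set N := isotypicComponent A V S
    have hNc : N ∈ isotypicComponents A V := ⟨S, hS, rfl⟩
    have hNtop : N ≠ ⊤ := fun h => hcon (isotypicComponent_eq_top_iff.mp h)
    have hN : N.IsFullyInvariant := .isotypicComponent A V S
    set N' := sSup (isotypicComponents A V \ {N})
    have hN' : N'.IsFullyInvariant :=
      isFullyInvariant_iff_sSup_isotypicComponents.mpr ⟨_, Set.diff_subset, rfl⟩
    have hcompl : IsCompl N N' := by
      constructor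
      · exact sSupIndep_isotypicComponents A V hNc
      · rw [codisjoint_iff, show N = sSup {N} from sSup_singleton.symm, ← sSup_union,
          Set.union_diff_cancel (Set.singleton_subset_iff.mpr hNc), sSup_isotypicComponents]
    let p : Module.End A V := Submodule.projection N N' hcompl
    obtain ⟨c, hc⟩ := hE (toF p) (htoF p) (fun Y hY => by
      obtain ⟨f, rfl⟩ := hof Y hY
      refine LinearMap.ext fun v => ?_
      show p (f v) = f (p v)
      have hv : v ∈ N ⊔ N' := by rw [hcompl.sup_eq_top]; trivial
      obtain ⟨x, hx, y, hy, rfl⟩ := Submodule.mem_sup.mp hv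
      simp only [map_add]
      have h1 : ∀ z ∈ N, p z = z := fun z hz => by
        simp [p, Submodule.projection_apply_of_mem_left hcompl hz]
      have h2 : ∀ z ∈ N', p z = 0 := fun z hz => by
        simp [p, Submodule.projection_apply_of_mem_right hcompl hz]
      rw [h1 x hx, h2 y hy, h1 _ (hN f hx), h2 _ (hN' f hy), map_zero])
    obtain ⟨x, hx, hx0⟩ := (Submodule.ne_bot_iff N).mp (bot_lt_isotypicComponents hNc).ne'
    have hN'0 : N' ≠ ⊥ := fun h => hNtop (by simpa [h] using hcompl.sup_eq_top)
    obtain ⟨y, hy, hy0⟩ := (Submodule.ne_bot_iff N').mp hN'0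
    have e1 : p x = c • x := congrFun (congrArg DFunLike.coe hc) x
    have e2 : p y = c • y := congrFun (congrArg DFunLike.coe hc) y
    rw [show p x = x by simp [p, Submodule.projection_apply_of_mem_left hcompl hx]] at e1
    rw [show p y = 0 by simp [p, Submodule.projection_apply_of_mem_right hcompl hy]] at e2
    have : c = 0 := (smul_eq_zero.mp e2.symm).resolve_right hy0
    rw [this, zero_smul] at e1
    exact hx0 e1
  obtain ⟨e, he, W, hWsimple, ⟨Φ⟩⟩ := hiso.linearEquiv_fun
  haveI : IsScalarTower F A W := ⟨fun c a v => rfl⟩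
  haveI := hWsimple
  haveI : Finite (Module.End A W) :=
    Finite.of_injective (fun f : Module.End A W => (f : W → W)) DFunLike.coe_injective
  letI : Ring A := A.toRing
  letI : DivisionRing (Module.End A W) := @Module.End.instDivisionRing A _ W _ _ _ _
  have hDcomm : ∀ δ δ' : Module.End A W, δ * δ' = δ' * δ :=
    (littleWedderburn (Module.End A W)).mul_comm
  have hDscalar : ∀ δ : Module.End A W, ∃ c : F, ∀ w : W, δ w = c • w := by
    intro δ
    let X : Module.End A V := Φ.symm.toLinearMap ∘ₗ (LinearMap.compLeft δ (Fin e)) ∘ₗ Φ.toLinearMap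
    obtain ⟨c, hc⟩ := hE (toF X) (htoF X) (fun Y hY => by
      obtain ⟨f, rfl⟩ := hof Y hY
      refine LinearMap.ext fun v => ?_
      show X (f v) = f (X v)
      apply Φ.injective
      let g : Module.End A (Fin e → W) := Φ.toLinearMap ∘ₗ f ∘ₗ Φ.symm.toLinearMap
      have hg : ∀ u, Φ (f u) = g (Φ u) := fun u => by simp [g]
      rw [hg]
      simp only [X, LinearMap.coe_comp, LinearEquiv.coe_coe, Function.comp_apply, LinearEquiv.apply_symm_apply, hg]
      funext k
      have key : ∀ u : Fin e → W, g u k = ∑ l, ((LinearMap.proj k) ∘ₗ g ∘ₗ LinearMap.single A (fun _ => W) l) (u l) := by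
        intro u
        conv_lhs => rw [← Finset.univ_sum_single u, map_sum, Finset.sum_apply]
        rfl
      rw [LinearMap.compLeft_apply, Function.comp_apply, key, key, map_sum]
      refine Finset.sum_congr rfl fun l _ => ?_
      rw [LinearMap.compLeft_apply, Function.comp_apply]
      exact congrFun (congrArg DFunLike.coe (hDcomm δ ((LinearMap.proj k) ∘ₗ g ∘ₗ LinearMap.single A (fun _ => W) l))) (Φ v l))
    refine ⟨c, fun w => ?_⟩
    have := congrFun (congrArg Φ (congrFun (congrArg DFunLike.coe hc) (Φ.symm (fun _ => w)))) ⟨0, Nat.pos_of_ne_zero (NeZero.ne e)⟩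
    simpa [X, toF, Module.algebraMap_end_apply, show ∀ x, Φ (c • x) = c • Φ x from fun x => Φ.toLinearMap.map_smul_of_tower c x] using this
  haveI : Nontrivial W := IsSimpleModule.nontrivial A W
  haveI : Module.Finite F W := Module.Finite.of_finite
  let b : Module.Basis (Fin (finrank F W)) F W := Module.finBasis F W
  set d := finrank F W
  let Ψ : V ≃ₗ[F] (Fin e → W) := Φ.restrictScalars F
  let h1 : Matrix (Fin d) (Fin d) F →ₐ[F] Module.End F (Fin e → W) :=
    { toFun := fun X => LinearMap.compLeft (Matrix.toLinAlgEquiv b X) (Fin e)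
      map_one' := by ext v k; simp
      map_mul' := fun X Y => by ext v k; simp
      map_zero' := by ext v k; simp
      map_add' := fun X Y => by ext v k; simp
      commutes' := fun c => by ext v k; simp [Module.algebraMap_end_apply] }
  let h2 : Matrix (Fin e) (Fin e) F →ₐ[F] Module.End F (Fin e → W) :=
    { toFun := fun Y => { toFun := fun v k => ∑ l, Y k l • v l
                          map_add' := fun u v => by funext k; simp [Finset.sum_add_distrib]
                          map_smul' := fun c v => by funext k; simp [Finset.smul_sum, smul_comm c] }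
      map_one' := by refine LinearMap.ext fun v => funext fun k => ?_; simp [Matrix.one_apply, ite_smul]
      map_mul' := fun X Y => by
        refine LinearMap.ext fun v => funext fun k => ?_
        show ∑ l, (X * Y) k l • v l = ∑ j, X k j • ∑ l, Y j l • v l
        simp only [Matrix.mul_apply, Finset.sum_smul, Finset.smul_sum, smul_smul]
        rw [Finset.sum_comm]
      map_zero' := by refine LinearMap.ext fun v => funext fun k => ?_; simp
      map_add' := fun X Y => by
        refine LinearMap.ext fun v => funext fun k => ?_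
        show ∑ l, (X + Y) k l • v l = ∑ l, X k l • v l + ∑ l, Y k l • v l
        simp [add_smul, Finset.sum_add_distrib]
      commutes' := fun c => by
        refine LinearMap.ext fun v => funext fun k => ?_
        show ∑ l, algebraMap F (Matrix (Fin e) (Fin e) F) c k l • v l = _
        simp [Matrix.algebraMap_matrix_apply, ite_smul, Module.algebraMap_end_apply] }
  let cj : Module.End F (Fin e → W) →ₐ[F] Module.End F V := (Ψ.symm.conjAlgEquiv F).toAlgHom
  have hcj : ∀ f v, cj f v = Ψ.symm (f (Ψ v)) := fun f v => rfl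
  refine ⟨d, e, cj.comp h1, cj.comp h2, finrank_pos, Nat.pos_of_ne_zero (NeZero.ne e), ?_, fun X Y => ?_, ?_, ?_⟩
  · have hres : ∀ (a : A) X, (∀ w : W, ((a • w : W)) = Matrix.toLinAlgEquiv b X w) → cj (h1 X) = (a : Module.End F V) := by
      intro a X h
      refine LinearMap.ext fun v => Ψ.injective ?_
      rw [hcj, LinearEquiv.apply_symm_apply]
      show _ = Φ (a • v)
      rw [map_smul]
      funext k
      exact (h _).symm
    refine le_antisymm ?_ fun a ha => ?_
    · rintro _ ⟨X, rfl⟩
      let f : Module.End (Module.End A W) W :=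
        { toFun := Matrix.toLinAlgEquiv b X
          map_add' := map_add _
          map_smul' := fun δ w => by
            obtain ⟨c, hc⟩ := hDscalar δ
            simp [Module.End.smul_def, hc] }
      obtain ⟨r, hr⟩ := jacobson_density f ((univ : Finset (Fin d)).image b)
      have heq : Matrix.toLinAlgEquiv b X = (DistribMulAction.toLinearMap F W r : W →ₗ[F] W) :=
        b.ext fun i => hr (b i) (Finset.mem_image_of_mem _ (mem_univ i))
      show cj (h1 X) ∈ A
      rw [hres r X fun w => (congrFun (congrArg DFunLike.coe heq) w).symm]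
      exact r.2
    · refine ⟨(Matrix.toLinAlgEquiv b).symm (DistribMulAction.toLinearMap F W (⟨a, ha⟩ : A)), ?_⟩
      exact hres ⟨a, ha⟩ _ fun w => by rw [AlgEquiv.apply_symm_apply]; rfl
  · refine (show Commute (h1 X) (h2 Y) from ?_).map cj
    refine LinearMap.ext fun v => funext fun k => ?_
    show Matrix.toLinAlgEquiv b X (∑ l, Y k l • v l) = ∑ l, Y k l • Matrix.toLinAlgEquiv b X (v l)
    simp
  · rw [Ψ.finrank_eq, Module.finrank_pi_fintype F]
    simp [d, mul_comm]
  · intro U hU
    refine (eq_or_ne U ⊥).imp_right fun hU0 => eq_top_iff.mpr fun v _ => ?_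
    obtain ⟨u, hu, hu0⟩ := (Submodule.ne_bot_iff U).mp hU0
    obtain ⟨k, hk⟩ := Function.ne_iff.mp ((Ψ.map_ne_zero_iff).mpr hu0)
    have hsingle : ∀ (j : Fin e) (w : W), Ψ.symm (Pi.single j w) ∈ U := by
      intro j w
      obtain ⟨φ, hφ⟩ : ∃ φ : W →ₗ[F] F, φ (Ψ u k) = 1 := by
        obtain ⟨φ, hφ⟩ : ∃ φ : W →ₗ[F] F, φ (Ψ u k) ≠ 0 := by
          by_contra hh; push_neg at hh
          exact hk (by simpa using (Module.forall_dual_apply_eq_zero_iff F (Ψ u k)).mp hh)
        exact ⟨(φ (Ψ u k))⁻¹ • φ, by simp [inv_mul_cancel₀ hφ]⟩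
      have m1 := hU (cj (h2 (Matrix.single j k 1))) (Or.inr ⟨_, rfl⟩) u hu
      have m2 := hU (cj (h1 ((Matrix.toLinAlgEquiv b).symm (φ.smulRight w)))) (Or.inl ⟨_, rfl⟩) _ m1
      convert m2 using 1
      rw [hcj, hcj, LinearEquiv.apply_symm_apply]
      congr 1
      funext i
      show (Pi.single j w : Fin e → W) i = Matrix.toLinAlgEquiv b _ (∑ l, Matrix.single j k (1 : F) i l • Ψ u l)
      rw [AlgEquiv.apply_symm_apply]
      by_cases hi : i = j
      · subst hi; simp [Matrix.single_apply, ite_smul, hφ]
      · simp [Matrix.single_apply, Ne.symm hi, hi]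
    rw [← Ψ.symm_apply_apply v, ← Finset.univ_sum_single (Ψ v), map_sum]
    exact U.sum_mem fun j _ => hsingle j _

end Cfsg.Agent.GeomClasses.Asch
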