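import Cfsg.Agent.GeomClasses.Aschbacher.CentralType

/-! # Commutative algebras normalised by an irreducible set -/

set_option autoImplicit false

namespace Cfsg.Agent.GeomClasses.Asch

open Module Finset

variable {F : Type*} [Field F] {V : Type*} [AddCommGroup V] [Module F V] [FiniteDimensional F V]
  {E : Subalgebra F (Module.End F V)} {S : Set (Module.End F V)ˣ}

/-- The centre of the centraliser of an algebra. -/
def centre (A : Subalgebra F (Module.End F V)) : Subalgebra F (Module.End F V) :=
  Subalgebra.centralizer F (A : Set (Module.End F V)) ⊓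
    Subalgebra.centralizer F (Subalgebra.centralizer F (A : Set (Module.End F V)) : Set (Module.End F V))

theorem mem_centre {A : Subalgebra F (Module.End F V)} {X : Module.End F V} :
    X ∈ centre A ↔ (∀ a ∈ A, Commute X a) ∧ ∀ Y, (∀ a ∈ A, Commute Y a) → Commute X Y := by
  simp only [centre, Algebra.mem_inf, Subalgebra.mem_centralizer_iff, SetLike.mem_coe]
  constructor
  · exact fun ⟨h1, h2⟩ => ⟨fun a ha => (h1 a ha).symm, fun Y hY => (h2 Y fun a ha => (hY a ha).symm).symm⟩
  · exact fun ⟨h1, h2⟩ => ⟨fun a ha => (h1 a ha).symm, fun Y hY => (h2 Y fun a ha => (hY a ha).symm).symm⟩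

theorem centre_comm {A : Subalgebra F (Module.End F V)} {x y : Module.End F V} (hx : x ∈ centre A)
    (hy : y ∈ centre A) : x * y = y * x :=
  (mem_centre.mp hx).2 y (mem_centre.mp hy).1

theorem commute_conj {g : (Module.End F V)ˣ} {X Y : Module.End F V} (h : Commute X Y) :
    Commute ((g : Module.End F V) * X * (g⁻¹ : (Module.End F V)ˣ).val)
      ((g : Module.End F V) * Y * (g⁻¹ : (Module.End F V)ˣ).val) := by
  show _ * _ = _ * _
  simp only [mul_assoc, Units.inv_mul_cancel_left]
  rw [← mul_assoc X, h.eq, mul_assoc]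

theorem normalises_centraliser {A : Subalgebra F (Module.End F V)} {g : (Module.End F V)ˣ} (hg : Normalises A g)
    {Y : Module.End F V} (hY : ∀ a ∈ A, Commute Y a) :
    ∀ a ∈ A, Commute ((g : Module.End F V) * Y * (g⁻¹ : (Module.End F V)ˣ).val) a := by
  intro a ha
  have h := commute_conj (g := g) (hY _ ((hg.inv a).mp ha))
  simpa [mul_assoc] using h

theorem normalises_centre {A : Subalgebra F (Module.End F V)} {g : (Module.End F V)ˣ} (hg : Normalises A g) :
    Normalises (centre A) g := by
  have key : ∀ (g : (Module.End F V)ˣ), Normalises A g → ∀ X ∈ centre A,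
      (g : Module.End F V) * X * (g⁻¹ : (Module.End F V)ˣ).val ∈ centre A := by
    intro g hg X hX
    rw [mem_centre] at hX ⊢
    refine ⟨normalises_centraliser hg hX.1, fun Y hY => ?_⟩
    have h := commute_conj (g := g) (hX.2 _ (normalises_centraliser hg.inv hY))
    simpa [mul_assoc] using h
  intro X
  refine ⟨key g hg X, fun h => ?_⟩
  have := key g⁻¹ hg.inv _ h
  simpa [mul_assoc] using this

variable (hcomm : ∀ x ∈ E, ∀ y ∈ E, x * y = y * x) (hS : ∀ g ∈ S, Normalises E g)
  (hirr : Irr ((fun g : (Module.End F V)ˣ => (g : Module.End F V)) '' S))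

include hcomm hS hirr in
/-- No nilpotent elements. -/
theorem eq_zero_of_nilpotent [Finite F] [Nontrivial V] {x : Module.End F V} (hx : x ∈ E) (hn : IsNilpotent x) :
    x = 0 := by
  classical
  haveI : Finite V := Module.finite_of_finite F
  haveI : Finite (Module.End F V) := Finite.of_injective _ DFunLike.coe_injective
  let N : Set (Module.End F V) := {y | y ∈ E ∧ IsNilpotent y}
  let W : Submodule F V := ⨅ y ∈ N, LinearMap.ker y
  have hW : W ≠ ⊥ := by
    have key : ∀ s : Finset (Module.End F V), (↑s ⊆ N) → ∃ v : V, v ≠ 0 ∧ ∀ y ∈ s, y v = 0 := by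
      intro s
      induction s using Finset.induction_on with
      | empty => intro _; obtain ⟨v, hv⟩ := exists_ne (0 : V); exact ⟨v, hv, by simp⟩
      | insert a s ha ih =>
        intro hs
        rw [Finset.coe_insert, Set.insert_subset_iff] at hs
        obtain ⟨v, hv, hsv⟩ := ih hs.2
        obtain ⟨k, hk⟩ := hs.1.2
        have hex : ∃ i, (a ^ i) v = 0 := ⟨k, by rw [hk]; rfl⟩
        have hj := Nat.find_spec hex
        rcases hj' : Nat.find hex with _ | j
        · rw [hj', pow_zero] at hj; exact absurd hj hv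
        · refine ⟨(a ^ j) v, Nat.find_min hex (by omega), fun y hy => ?_⟩
          rcases Finset.mem_insert.mp hy with rfl | hy
          · rw [← Module.End.mul_apply, ← pow_succ', ← hj', Nat.find_spec hex]
          · rw [← Module.End.mul_apply, hcomm y (hs.2 hy).1 _ (pow_mem hs.1.1 j), Module.End.mul_apply, hsv y hy, map_zero]
    obtain ⟨v, hv, hvs⟩ := key N.toFinite.toFinset (by simp)
    refine fun h => hv ((Submodule.mem_bot F).mp (h ▸ ?_))
    simp only [W, Submodule.mem_iInf, LinearMap.mem_ker]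
    exact fun y hy => hvs y (by simpa using hy)
  have := (hirr W ?_).resolve_left hW
  · refine LinearMap.ext fun v => ?_
    have hv : v ∈ W := this ▸ trivial
    simp only [W, Submodule.mem_iInf, LinearMap.mem_ker] at hv
    exact hv x ⟨hx, hn⟩
  · rintro _ ⟨g, hg, rfl⟩ w hw
    simp only [W, Submodule.mem_iInf, LinearMap.mem_ker] at hw ⊢
    rintro y ⟨hy, k, hk⟩
    have h1 := hw ((g⁻¹ : (Module.End F V)ˣ).val * y * (g : Module.End F V))
      ⟨by simpa [mul_assoc] using ((hS g hg).inv y).mp hy, k, by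
        rw [Units.conj_pow' g y, hk, mul_zero, zero_mul]⟩
    simp only [Module.End.mul_apply] at h1
    have := congrArg (g : Module.End F V) h1
    rwa [map_zero, ← Module.End.mul_apply, Units.mul_inv, Module.End.one_apply] at this

include hcomm hS hirr in
/-- Either a permuted direct sum decomposition or a field. -/
theorem decomp_or_field [Finite F] [Nontrivial V] :
    (∃ (t m : ℕ) (D : Fin t → Submodule F V), 2 ≤ t ∧ 0 < m ∧ (∀ i, finrank F (D i) = m) ∧ iSupIndep D ∧
      iSup D = ⊤ ∧ ∀ g : (Module.End F V)ˣ, Normalises E g → (∀ i, ∃ j, ∀ v ∈ D i, (g : Module.End F V) v ∈ D j) ∨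
        g ∉ S) ∨
    ∀ x ∈ E, x ≠ 0 → ∃ y ∈ E, x * y = 1 := by
  classical
  haveI : Finite V := Module.finite_of_finite F
  haveI : Finite (Module.End F V) := Finite.of_injective _ DFunLike.coe_injective
  haveI := Fintype.ofFinite (Module.End F V)
  by_cases hidem : ∃ x ∈ E, x * x = x ∧ x ≠ 0 ∧ x ≠ 1
  swap
  · push_neg at hidem
    refine Or.inr fun x hx hx0 => ?_
    obtain ⟨a, b, hab, hpow⟩ : ∃ a b, a < b ∧ x ^ (a + 1) = x ^ (b + 1) := by
      obtain ⟨a, b, hne, h⟩ := Finite.exists_ne_map_eq_of_infinite fun k : ℕ => x ^ (k + 1)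
      rcases lt_or_gt_of_ne hne with h' | h'
      · exact ⟨a, b, h', h⟩
      · exact ⟨b, a, h', h.symm⟩
    obtain ⟨d, rfl⟩ : ∃ d, b = a + 1 + d := ⟨b - a - 1, by omega⟩
    have hper : ∀ k, x ^ (a + 1 + k * (d + 1)) = x ^ (a + 1) := by
      intro k
      induction k with
      | zero => simp
      | succ k ih =>
        rw [show a + 1 + (k + 1) * (d + 1) = (d + 1) + (a + 1 + k * (d + 1)) by ring, pow_add, ih, ← pow_add,
          show d + 1 + (a + 1) = a + 1 + d + 1 by ring, ← hpow]
    set m := (a + 1) * (d + 1) with hm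
    obtain ⟨j, hj⟩ : ∃ j, m = a + 1 + j := ⟨(a + 1) * d, by rw [hm]; ring⟩
    have hid : x ^ m * x ^ m = x ^ m := by
      have e := hper (a + 1)
      rw [← hm] at e
      rw [← pow_add, show m + m = (a + 1 + m) + j by omega, pow_add, e, ← pow_add, ← hj]
    have hne : x ^ m ≠ 0 := fun h => hx0 (eq_zero_of_nilpotent hcomm hS hirr hx ⟨m, h⟩)
    have h1 := hidem _ (pow_mem hx m) hid hne
    refine ⟨x ^ (m - 1), pow_mem hx _, ?_⟩
    rw [← pow_succ', show m - 1 + 1 = m by omega, h1]
  left
  let P : Finset (Module.End F V) := univ.filter fun e =>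
    e ∈ E ∧ e * e = e ∧ e ≠ 0 ∧ ∀ f ∈ E, f * f = f → e * f = 0 ∨ e * f = e
  have hP : ∀ {e}, e ∈ P ↔ e ∈ E ∧ e * e = e ∧ e ≠ 0 ∧ ∀ f ∈ E, f * f = f → e * f = 0 ∨ e * f = e := by simp [P]
  have hmul : ∀ x ∈ E, ∀ y ∈ E, x * x = x → y * y = y → (x * y) * (x * y) = x * y := by
    intro x hx y hy h1 h2
    rw [mul_assoc, ← mul_assoc y, hcomm y hy x hx, mul_assoc x y y, h2, ← mul_assoc, h1]
  have horth : ∀ e ∈ P, ∀ f ∈ P, e ≠ f → e * f = 0 := by
    intro e he f hf hne
    rw [hP] at he hf
    rcases he.2.2.2 f hf.1 hf.2.1 with h | h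
    · exact h
    rcases hf.2.2.2 e he.1 he.2.1 with h' | h'
    · rwa [hcomm e he.1 f hf.1]
    · exact absurd (by rw [← h, hcomm e he.1 f hf.1, h']) hne
  have hbelow : ∀ k, ∀ x ∈ E, x * x = x → x ≠ 0 → finrank F (LinearMap.range x) ≤ k →
      ∃ e ∈ P, e * x = e := by
    intro k
    induction k with
    | zero =>
      intro x _ _ hx0 hk
      exact absurd (LinearMap.range_eq_bot.mp (Submodule.finrank_eq_zero.mp (Nat.le_zero.mp hk))) hx0
    | succ k ih =>
      intro x hx hxx hx0 hk
      by_cases hmin : ∀ f ∈ E, f * f = f → x * f = 0 ∨ x * f = x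
      · exact ⟨x, hP.mpr ⟨hx, hxx, hx0, hmin⟩, hxx⟩
      push_neg at hmin
      obtain ⟨f, hf, hff, h0, h1⟩ := hmin
      have hle : LinearMap.range (x * f) ≤ LinearMap.range x := LinearMap.range_comp_le_range f x
      have hlt : LinearMap.range (x * f) < LinearMap.range x := by
        refine lt_of_le_of_ne hle fun h => h1 (LinearMap.ext fun v => ?_)
        obtain ⟨w, hw⟩ : x v ∈ LinearMap.range (x * f) := h ▸ ⟨v, rfl⟩
        calc (x * f) v = (x * f) (x v) := by rw [← Module.End.mul_apply (x * f), mul_assoc, hcomm f hf x hx,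
                ← mul_assoc, hxx]
          _ = (x * f) ((x * f) w) := by rw [hw]
          _ = (x * f) w := by rw [← Module.End.mul_apply, hmul x hx f hf hxx hff]
          _ = x v := hw
      obtain ⟨e, he, hex⟩ := ih (x * f) (mul_mem hx hf) (hmul x hx f hf hxx hff) h0
        (by have := Submodule.finrank_lt_finrank_of_lt hlt; omega)
      exact ⟨e, he, by rw [← hex, mul_assoc, mul_assoc, hcomm f hf x hx, ← mul_assoc x x f, hxx]⟩
  have hPE : ∀ e ∈ P, e ∈ E := fun e he => (hP.mp he).1
  have hsumP : ∀ O ⊆ P, ∀ e ∈ P, e * ∑ f ∈ O, f = if e ∈ O then e else 0 := by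
    intro O hO e he
    rw [Finset.mul_sum]
    by_cases h : e ∈ O
    · rw [if_pos h, Finset.sum_eq_single_of_mem e h fun f hf hne => horth e he f (hO hf) (Ne.symm hne), (hP.mp he).2.1]
    · rw [if_neg h]
      exact Finset.sum_eq_zero fun f hf => horth e he f (hO hf) fun e' => h (e' ▸ hf)
  have hidO : ∀ O ⊆ P, (∑ f ∈ O, f) * (∑ f ∈ O, f) = ∑ f ∈ O, f := by
    intro O hO
    rw [Finset.sum_mul]
    exact Finset.sum_congr rfl fun e he => by rw [hsumP O hO e (hO he), if_pos he]
  have hone : ∑ e ∈ P, e = 1 := by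
    by_contra h
    have hx : 1 - ∑ e ∈ P, e ∈ E := sub_mem (one_mem _) (sum_mem hPE)
    obtain ⟨e, he, hex⟩ := hbelow _ _ hx
      (by rw [mul_sub, sub_mul, sub_mul, hidO P subset_rfl]; simp) (sub_ne_zero.mpr (Ne.symm h)) le_rfl
    rw [mul_sub, mul_one, hsumP P subset_rfl e he, if_pos he, sub_self] at hex
    exact (hP.mp he).2.2.1 hex.symm
  have hconjP : ∀ g, Normalises E g → ∀ e ∈ P, (g : Module.End F V) * e * (g⁻¹ : (Module.End F V)ˣ).val ∈ P := by
    intro g hg e he
    rw [hP] at he ⊢
    refine ⟨(hg e).mp he.1, ?_, fun h => he.2.2.1 ?_, fun f hf hff => ?_⟩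
    · simp only [mul_assoc, Units.inv_mul_cancel_left]; rw [← mul_assoc e e, he.2.1]
    · have := congrArg (fun z => (g⁻¹ : (Module.End F V)ˣ).val * z * (g : Module.End F V)) h
      simpa [mul_assoc] using this
    · have hf' : (g⁻¹ : (Module.End F V)ˣ).val * f * (g : Module.End F V) ∈ E := by simpa using (hg.inv f).mp hf
      have e' : (g : Module.End F V) * e * (g⁻¹ : (Module.End F V)ˣ).val * f = (g : Module.End F V) *
          (e * ((g⁻¹ : (Module.End F V)ˣ).val * f * (g : Module.End F V))) * (g⁻¹ : (Module.End F V)ˣ).val := by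
        simp [mul_assoc]
      rw [e']
      rcases he.2.2.2 _ hf' (by simp only [mul_assoc, Units.mul_inv_cancel_left]; rw [← mul_assoc f f, hff]) with h | h
      · left; rw [h, mul_zero, zero_mul]
      · right; rw [h]
  obtain ⟨x0, hx0E, hx00, hx0ne, hx0one⟩ := hidem
  obtain ⟨e0, he0, -⟩ := hbelow _ x0 hx0E hx00 hx0ne le_rfl
  let D0 := finrank F (LinearMap.range e0)
  let O := P.filter fun e => finrank F (LinearMap.range e) = D0
  have hrange : ∀ (g : (Module.End F V)ˣ) (e : Module.End F V), LinearMap.range ((g : Module.End F V) * e *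
      (g⁻¹ : (Module.End F V)ˣ).val) = (LinearMap.range e).map (g : Module.End F V) := by
    intro g e
    apply le_antisymm
    · rintro _ ⟨v, rfl⟩; exact ⟨_, ⟨(g⁻¹ : (Module.End F V)ˣ).val v, rfl⟩, rfl⟩
    · rintro _ ⟨_, ⟨v, rfl⟩, rfl⟩
      refine ⟨(g : Module.End F V) v, ?_⟩
      simp only [Module.End.mul_apply]
      rw [← Module.End.mul_apply (g⁻¹ : (Module.End F V)ˣ).val, Units.inv_mul, Module.End.one_apply]
  have hinj : ∀ g : (Module.End F V)ˣ, Function.Injective (g : Module.End F V) := fun g a b h => by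
    have := congrArg (g⁻¹ : (Module.End F V)ˣ).val h
    rwa [← Module.End.mul_apply, ← Module.End.mul_apply, Units.inv_mul] at this
  have hOconj : ∀ g, Normalises E g → ∀ e ∈ O,
      (g : Module.End F V) * e * (g⁻¹ : (Module.End F V)ˣ).val ∈ O := by
    intro g hg e he
    simp only [O, mem_filter] at he ⊢
    refine ⟨hconjP g hg e he.1, ?_⟩
    rw [hrange, ← he.2]
    exact ((Submodule.equivMapOfInjective _ (hinj g) _).finrank_eq).symm
  have hOP : O ⊆ P := Finset.filter_subset _ _
  have hfixO : ∀ e ∈ O, ∀ v, e v ∈ LinearMap.range (∑ f ∈ O, f) := fun e he v => by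
    refine ⟨e v, ?_⟩
    rw [← Module.End.mul_apply, hcomm _ (sum_mem fun f hf => hPE f (hOP hf)) e (hPE e (hOP he)),
      hsumP O hOP e (hOP he), if_pos he]
  have htop : LinearMap.range (∑ f ∈ O, f) = ⊤ := by
    refine (hirr _ ?_).resolve_left fun h => (hP.mp he0).2.2.1 (LinearMap.ext fun v => ?_)
    · rintro _ ⟨g, hg, rfl⟩ w ⟨v, rfl⟩
      have e : (g : Module.End F V) * (∑ f ∈ O, f) =
          (∑ f ∈ O, (g : Module.End F V) * f * (g⁻¹ : (Module.End F V)ˣ).val) * (g : Module.End F V) := by
        rw [Finset.sum_mul, Finset.mul_sum]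
        exact Finset.sum_congr rfl fun f _ => by simp [mul_assoc]
      show (g : Module.End F V) ((∑ f ∈ O, f) v) ∈ _
      rw [← Module.End.mul_apply, e, Module.End.mul_apply, LinearMap.sum_apply]
      exact Submodule.sum_mem _ fun f hf => hfixO _ (hOconj g (hS g hg) f hf) _
    · have := hfixO e0 (by simp [O, D0, he0]) v
      rw [h, Submodule.mem_bot] at this
      exact this
  have hallO : ∀ e ∈ P, e ∈ O := by
    intro e he
    by_contra hne
    apply (hP.mp he).2.2.1
    refine LinearMap.ext fun v => ?_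
    obtain ⟨w, hw⟩ : v ∈ LinearMap.range (∑ f ∈ O, f) := htop ▸ trivial
    rw [← hw, ← Module.End.mul_apply, hsumP O hOP e he, if_neg hne]
    simp
  let en := P.equivFin
  have hpos : 0 < D0 := Nat.pos_of_ne_zero fun h =>
    (hP.mp he0).2.2.1 (LinearMap.range_eq_bot.mp (Submodule.finrank_eq_zero.mp h))
  refine ⟨P.card, D0, fun i => LinearMap.range (en.symm i).1, ?_, hpos, fun i => ?_, ?_, ?_, fun g hg => ?_⟩
  · by_contra hlt
    push_neg at hlt
    have h1 : P = {e0} :=
      (Finset.eq_of_subset_of_card_le (Finset.singleton_subset_iff.mpr he0) (by simp; omega)).symm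
    rw [h1, Finset.sum_singleton] at hone
    rcases (hP.mp he0).2.2.2 x0 hx0E hx00 with h | h
    · rw [hone, one_mul] at h; exact hx0ne h
    · rw [hone, one_mul] at h; exact hx0one h
  · exact (mem_filter.mp (hallO _ (en.symm i).2)).2
  · rw [iSupIndep_def]
    intro i
    rw [Submodule.disjoint_def]
    rintro v ⟨w, rfl⟩ hv
    have hker : (⨆ (j) (_ : j ≠ i), LinearMap.range (en.symm j).1) ≤ LinearMap.ker (en.symm i).1 := by
      refine iSup₂_le fun j hj => ?_
      rintro _ ⟨u, rfl⟩
      rw [LinearMap.mem_ker, ← Module.End.mul_apply, horth _ (en.symm i).2 _ (en.symm j).2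
        (fun e => hj (en.symm.injective (Subtype.ext e)).symm)]
      rfl
    have h1 := LinearMap.mem_ker.mp (hker hv)
    rwa [← Module.End.mul_apply, (hP.mp (en.symm i).2).2.1] at h1
  · refine eq_top_iff.mpr fun v _ => ?_
    have : v = ∑ e ∈ P, e v := by rw [← LinearMap.sum_apply, hone]; rfl
    rw [this]
    refine Submodule.sum_mem _ fun e he => Submodule.mem_iSup_of_mem (en ⟨e, he⟩) ?_
    simp
  · left
    intro i
    refine ⟨en ⟨_, hconjP g hg _ (en.symm i).2⟩, ?_⟩
    rintro _ ⟨w, rfl⟩
    simp only [Equiv.symm_apply_apply]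
    refine ⟨(g : Module.End F V) w, ?_⟩
    simp only [Module.End.mul_apply]
    rw [← Module.End.mul_apply (g⁻¹ : (Module.End F V)ˣ).val, Units.inv_mul, Module.End.one_apply]

/-- A field of operators contains a subfield of prime degree invariant under its normaliser. -/
theorem exists_prime_subfield [Fintype F] [Nontrivial V] (hcomm : ∀ x ∈ E, ∀ y ∈ E, x * y = y * x)
    (hinv : ∀ x ∈ E, x ≠ 0 → ∃ y ∈ E, x * y = 1) (hbig : ∃ x ∈ E, ∀ c : F, x ≠ algebraMap F _ c) :
    ∃ (r : ℕ) (K : Subalgebra F (Module.End F V)), r.Prime ∧ K ≤ E ∧ finrank F K = r ∧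
      (∀ x ∈ K, x ≠ 0 → ∃ y ∈ K, x * y = 1) ∧ ∀ g, Normalises E g → Normalises K g := by
  classical
  letI : CommRing E := { (inferInstance : Ring E) with mul_comm := fun a b => Subtype.ext (hcomm a a.2 b b.2) }
  haveI : Nontrivial E := ⟨0, 1, fun h => zero_ne_one (congrArg Subtype.val h)⟩
  have hF : IsField E := ⟨⟨0, 1, zero_ne_one⟩, mul_comm, fun {a} ha => by
    obtain ⟨y, hy, hxy⟩ := hinv a a.2 fun h => ha (Subtype.ext h)
    exact ⟨⟨y, hy⟩, Subtype.ext hxy⟩⟩
  letI : Field E := hF.toField
  haveI : Finite V := Module.finite_of_finite F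
  haveI : Finite (Module.End F V) := Finite.of_injective _ DFunLike.coe_injective
  haveI := Fintype.ofFinite E
  set d := finrank F E with hd
  set q := Fintype.card F with hq
  have hqd : Fintype.card E = q ^ d := Module.card_eq_pow_finrank
  have hd1 : 1 < d := by
    by_contra h
    push_neg at h
    obtain ⟨x, hx, hxc⟩ := hbig
    have h1 : d = 1 := le_antisymm h finrank_pos
    obtain ⟨c, hc⟩ := (finrank_eq_one_iff_of_nonzero' (1 : E) one_ne_zero).mp h1 ⟨x, hx⟩
    refine hxc c ?_
    have := congrArg Subtype.val hc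
    simpa [Algebra.algebraMap_eq_smul_one] using this.symm
  obtain ⟨r, hr, hrd⟩ := Nat.exists_prime_and_dvd (by omega : d ≠ 1)
  obtain ⟨p, hp⟩ := CharP.exists F
  haveI := hp
  haveI : Fact p.Prime := ⟨CharP.char_is_prime F p⟩
  obtain ⟨s, -, hqs⟩ := FiniteField.card F p
  haveI : CharP E p := charP_of_injective_algebraMap (algebraMap F E).injective p
  set Q := q ^ r with hQ
  have hadd : ∀ a b : E, (a + b) ^ Q = a ^ Q + b ^ Q := by
    intro a b
    rw [hQ, hq, hqs, ← pow_mul]
    exact add_pow_char_pow a b p _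
  have hQpos : 0 < Q := pow_pos (by rw [hq]; exact Fintype.card_pos) _
  have hcst : ∀ c : F, (algebraMap F E c) ^ Q = algebraMap F E c := fun c => by
    rw [← map_pow, hQ, hq, FiniteField.pow_card_pow]
  let K0 : Subalgebra F E :=
    { carrier := {x | x ^ Q = x}
      mul_mem' := fun {a b} ha hb => by simp only [Set.mem_setOf_eq] at *; rw [mul_pow, ha, hb]
      one_mem' := one_pow _
      add_mem' := fun {a b} ha hb => by simp only [Set.mem_setOf_eq] at *; rw [hadd, ha, hb]
      zero_mem' := zero_pow hQpos.ne'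
      algebraMap_mem' := hcst }
  let K : Subalgebra F (Module.End F V) := K0.map E.val
  have hKmem : ∀ x, x ∈ K ↔ x ∈ E ∧ x ^ Q = x := by
    intro x
    constructor
    · rintro ⟨y, hy, rfl⟩
      exact ⟨y.2, congrArg Subtype.val (show y ^ Q = y from hy)⟩
    · rintro ⟨hx, h⟩
      exact ⟨⟨x, hx⟩, Subtype.ext h, rfl⟩
  refine ⟨r, K, hr, fun x hx => ((hKmem x).mp hx).1, ?_, fun x hx hx0 => ?_, fun g hg => ?_⟩
  · have hcard : Nat.card K0 = Q := by
      apply le_antisymm
      · have hne : (Polynomial.X ^ Q - Polynomial.X : Polynomial E) ≠ 0 := by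
          refine FiniteField.X_pow_card_sub_X_ne_zero E ?_
          rw [hQ]
          exact Nat.one_lt_pow hr.ne_zero (by rw [hq]; exact Fintype.one_lt_card)
        have hsub : (univ.filter fun x : E => x ^ Q = x) ⊆ (Polynomial.X ^ Q - Polynomial.X : Polynomial E).roots.toFinset := by
          intro x hx
          rw [Multiset.mem_toFinset, Polynomial.mem_roots hne]
          simpa [sub_eq_zero] using hx
        calc Nat.card K0 = (univ.filter fun x : E => x ^ Q = x).card := by
              rw [← Fintype.card_subtype, ← Nat.card_eq_fintype_card]; rfl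
          _ ≤ _ := Finset.card_le_card hsub
          _ ≤ _ := Multiset.toFinset_card_le _
          _ ≤ Q := by
              refine (Polynomial.card_roots' _).trans ?_
              rw [FiniteField.X_pow_card_sub_X_natDegree_eq]
              rw [hQ]
              exact Nat.one_lt_pow hr.ne_zero (by rw [hq]; exact Fintype.one_lt_card)
      · obtain ⟨g, hg⟩ := IsCyclic.exists_generator (α := Eˣ)
        have ho : orderOf g = q ^ d - 1 := by
          rw [orderOf_eq_card_of_forall_mem_zpowers hg, Nat.card_eq_fintype_card, Fintype.card_units, hqd]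
        obtain ⟨u, hu⟩ : Q - 1 ∣ q ^ d - 1 := Nat.pow_sub_one_dvd_pow_sub_one q hrd
        have hkey : ∀ i : ℕ, g ^ (u * i * Q) = g ^ (u * i) := fun i => by
          have e : u * i * Q = (q ^ d - 1) * i + u * i := by
            rw [hu, show u * i * Q = u * i * ((Q - 1) + 1) by rw [Nat.sub_add_cancel hQpos]]; ring
          rw [e, pow_add, pow_mul, ← ho, pow_orderOf_eq_one, one_pow, one_mul]
        let f : Option (Fin (Q - 1)) → K0 := fun o => match o with
          | none => 0
          | some i => ⟨((g ^ (u * (i : ℕ)) : Eˣ) : E), by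
              show ((g ^ (u * (i : ℕ)) : Eˣ) : E) ^ Q = _
              rw [← Units.val_pow_eq_pow_val, ← pow_mul]
              congr 1
              exact hkey i⟩
        have hf : Function.Injective f := by
          rintro (_ | i) (_ | j) h
          · rfl
          · exact absurd (congrArg Subtype.val h).symm (Units.ne_zero (g ^ (u * (j : ℕ))))
          · exact absurd (congrArg Subtype.val h) (Units.ne_zero (g ^ (u * (i : ℕ))))
          · have h' : g ^ (u * (i : ℕ)) = g ^ (u * (j : ℕ)) := Units.ext (congrArg Subtype.val h)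
            rw [pow_inj_mod, ho, hu] at h'
            have hu0 : 0 < u := Nat.pos_of_ne_zero fun h0 => by
              have : 0 < orderOf g := orderOf_pos g
              rw [ho, hu, h0, mul_zero] at this; omega
            rw [mul_comm (Q - 1) u, Nat.mul_mod_mul_left, Nat.mul_mod_mul_left, Nat.mod_eq_of_lt i.2,
              Nat.mod_eq_of_lt j.2] at h'
            exact congrArg some (Fin.ext (Nat.eq_of_mul_eq_mul_left hu0 h'))
        have := Nat.card_le_card_of_injective f hf
        rw [Nat.card_eq_fintype_card, Fintype.card_option, Fintype.card_fin] at this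
        omega
    have h2 : Nat.card K0 = q ^ finrank F K0 := by
      rw [hq, Nat.card_eq_fintype_card]; exact Module.card_eq_pow_finrank
    rw [hcard, hQ] at h2
    have := Nat.pow_right_injective (by rw [hq]; exact Fintype.one_lt_card : 2 ≤ q) h2
    rw [show finrank F K = finrank F K0 from
      (K0.equivMapOfInjective E.val Subtype.val_injective).toLinearEquiv.finrank_eq.symm, ← this]
  · obtain ⟨hxE, hxQ⟩ := (hKmem x).mp hx
    obtain ⟨y, hy, hxy⟩ := hinv x hxE hx0
    refine ⟨y, (hKmem y).mpr ⟨hy, ?_⟩, hxy⟩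
    have hc : Commute x y := hcomm x hxE y hy
    calc y ^ Q = (y * x) * y ^ Q := by rw [← hc.eq, hxy, one_mul]
      _ = y * (x ^ Q * y ^ Q) := by rw [hxQ, mul_assoc]
      _ = y := by rw [← hc.mul_pow, hxy, one_pow, mul_one]
  · intro x
    rw [hKmem, hKmem, ← hg x, Units.conj_pow g x]
    refine ⟨fun h => ⟨h.1, by rw [h.2]⟩, fun h => ⟨h.1, ?_⟩⟩
    have := congrArg (fun z => (g⁻¹ : (Module.End F V)ˣ).val * z * (g : Module.End F V)) h.2
    simpa [mul_assoc] using this

end Cfsg.Agent.GeomClasses.Asch
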