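import Cfsg.Prelude.Def_GeometricClasses
import Cfsg.Agent.GeomClasses.SympStructure

/-! # Forms fixed by spanning groups of matrices -/

set_option autoImplicit false

namespace Cfsg.Agent.GeomClasses.Asch

open Matrix Cfsg.Geo

variable {F : Type*} [Field F] {n : ℕ}

/-- The matrices of the set span the whole matrix algebra. -/
def Full (N : Subgroup (GL (Fin n) F)) : Prop :=
  Submodule.span F (matrixSet N) = ⊤

/-- The group is contained in a member of one of the geometric classes. -/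
def Good [Fintype F] (H : Subgroup (GL (Fin n) F)) : Prop :=
  ∃ M : Subgroup (GL (Fin n) F), InLinearClass n F M ∧ H ≤ M

theorem Full.comm_scalar {N : Subgroup (GL (Fin n) F)} (hN : Full N) {M : Matrix (Fin n) (Fin n) F}
    (h : ∀ x ∈ N, M * (x : Matrix (Fin n) (Fin n) F) = (x : Matrix (Fin n) (Fin n) F) * M) :
    ∃ c : F, M = c • (1 : Matrix (Fin n) (Fin n) F) := by
  have hall : ∀ X : Matrix (Fin n) (Fin n) F, M * X = X * M := by
    intro X
    have hX : X ∈ Submodule.span F (matrixSet N) := hN ▸ trivial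
    induction hX using Submodule.span_induction with
    | mem y hy => obtain ⟨x, hx, rfl⟩ := hy; exact h x hx
    | zero => simp
    | add a b _ _ ha hb => rw [mul_add, add_mul, ha, hb]
    | smul c a _ ha => rw [Matrix.mul_smul, Matrix.smul_mul, ha]
  obtain ⟨c, hc⟩ := Matrix.mem_range_scalar_iff_commute_single'.mpr
    (fun i j => (hall (Matrix.single i j 1)).symm : ∀ i j, Commute (Matrix.single i j (1 : F)) M)
  exact ⟨c, by rw [← hc, Matrix.scalar_apply, Matrix.smul_one_eq_diagonal]⟩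

theorem Full.absIrred {N : Subgroup (GL (Fin n) F)} (hN : Full N) : ActsAbsolutelyIrreducibly (matrixSet N) := by
  refine ⟨fun W hW => (eq_or_ne W ⊥).imp_right fun h0 => eq_top_iff.mpr fun v _ => ?_, fun M hM =>
    hN.comm_scalar fun x hx => hM _ ⟨x, hx, rfl⟩⟩
  obtain ⟨w, hw, hw0⟩ := (Submodule.ne_bot_iff W).mp h0
  obtain ⟨j, hj⟩ := Function.ne_iff.mp hw0
  have hall : ∀ X : Matrix (Fin n) (Fin n) F, X *ᵥ w ∈ W := by
    intro X
    have hX : X ∈ Submodule.span F (matrixSet N) := hN ▸ trivial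
    induction hX using Submodule.span_induction with
    | mem y hy => exact hW y hy ⟨w, hw, Matrix.toLin'_apply _ _⟩
    | zero => simp
    | add a b _ _ ha hb => rw [Matrix.add_mulVec]; exact add_mem ha hb
    | smul c a _ ha => rw [Matrix.smul_mulVec]; exact W.smul_mem c ha
  have := hall (Matrix.vecMulVec v (Pi.single j (w j)⁻¹))
  rwa [Matrix.vecMulVec_mulVec, single_dotProduct, inv_mul_cancel₀ (by simpa using hj), MulOpposite.op_one,
    one_smul] at this

/-- The form of a matrix, twisted by an automorphism. -/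
def matForm (σ : F ≃+* F) (B : Matrix (Fin n) (Fin n) F) (u v : Fin n → F) : F :=
  u ⬝ᵥ (B *ᵥ fun i => σ (v i))

theorem mulVec_twist (σ : F ≃+* F) (g : Matrix (Fin n) (Fin n) F) (v : Fin n → F) :
    (fun i => σ ((g *ᵥ v) i)) = g.map σ *ᵥ fun i => σ (v i) :=
  funext fun i => RingHom.map_mulVec σ.toRingHom g v i

theorem matForm_apply (σ : F ≃+* F) (B g : Matrix (Fin n) (Fin n) F) (u v : Fin n → F) :
    matForm σ B (g *ᵥ u) (g *ᵥ v) = matForm σ (gᵀ * B * g.map σ) u v := by
  rw [matForm, matForm, mulVec_twist, Matrix.mulVec_mulVec, ← Matrix.mulVec_mulVec (N := g.map σ),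
    ← Matrix.mulVec_mulVec (N := g.map σ) (M := gᵀ * B), ← Matrix.mulVec_mulVec (M := gᵀ) (N := B),
    Matrix.dotProduct_mulVec u gᵀ, Matrix.vecMul_transpose]

theorem matForm_single (σ : F ≃+* F) (B : Matrix (Fin n) (Fin n) F) (i j : Fin n) :
    matForm σ B (Pi.single i 1) (Pi.single j 1) = B i j := by
  rw [matForm, show (fun k => σ ((Pi.single j 1 : Fin n → F) k)) = Pi.single j 1 from funext fun k => by
    by_cases h : k = j
    · subst h; simp
    · simp [Pi.single_eq_of_ne h]]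
  simp

theorem mem_similarity {σ : F ≃+* F} {B : Matrix (Fin n) (Fin n) F} {g : GL (Fin n) F} {c : Fˣ}
    (h : (g : Matrix (Fin n) (Fin n) F)ᵀ * B * (g : Matrix (Fin n) (Fin n) F).map σ = (c : F) • B) :
    g ∈ similarityGroup (matForm σ B) := by
  refine ⟨c, fun u v => ?_⟩
  rw [matForm_apply, h, matForm, matForm, Matrix.smul_mulVec, dotProduct_smul, smul_eq_mul]

theorem nondeg_matForm {σ : F ≃+* F} {B : Matrix (Fin n) (Fin n) F} (hB : IsUnit B.det) :
    IsNondegenerateForm (matForm σ B) := by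
  intro v hv
  obtain ⟨i, hi⟩ := Function.ne_iff.mp hv
  have hcol : ∀ y : Fin n → F, ∃ w, (B *ᵥ w) = y := fun y =>
    ⟨B⁻¹ *ᵥ y, by rw [Matrix.mulVec_mulVec, Matrix.mul_nonsing_inv B hB, Matrix.one_mulVec]⟩
  constructor
  · have hne : (B *ᵥ fun k => σ (v k)) ≠ 0 := fun h0 => hv (funext fun k => by
      have := congrArg (B⁻¹ *ᵥ ·) h0
      simp only [Matrix.mulVec_mulVec, Matrix.nonsing_inv_mul B hB, Matrix.one_mulVec, Matrix.mulVec_zero] at this
      exact σ.injective (by rw [congrFun this k]; simp))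
    obtain ⟨k, hk⟩ := Function.ne_iff.mp hne
    exact ⟨Pi.single k 1, by rw [matForm, single_dotProduct, one_mul]; exact hk⟩
  · obtain ⟨w, hw⟩ := hcol (Pi.single i 1)
    refine ⟨fun k => σ.symm (w k), ?_⟩
    simpa [matForm, hw] using hi

theorem bilinear_matForm (B : Matrix (Fin n) (Fin n) F) : IsBilinearForm (matForm (RingEquiv.refl F) B) := by
  constructor
  · intro x y v; simp [matForm, add_dotProduct]
  · intro c x v; simp [matForm, smul_dotProduct]
  · intro v x y
    show v ⬝ᵥ (B *ᵥ (x + y)) = v ⬝ᵥ (B *ᵥ x) + v ⬝ᵥ (B *ᵥ y)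
    rw [Matrix.mulVec_add, dotProduct_add]
  · intro c v x
    show v ⬝ᵥ (B *ᵥ (c • x)) = c * (v ⬝ᵥ (B *ᵥ x))
    rw [Matrix.mulVec_smul, dotProduct_smul, smul_eq_mul]

variable [Fintype F]

theorem even_of_alternating {f : (Fin n → F) → (Fin n → F) → F} (hf : IsSymplecticForm f) : Even n := by
  let B : LinearMap.BilinForm F (Fin n → F) := LinearMap.mk₂ F f hf.bilinear.add_left
    (fun c x v => hf.bilinear.smul_left c x v) hf.bilinear.add_right (fun c v x => hf.bilinear.smul_right c v x)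
  have h : SympStructure.Nd B ⊤ := fun w _ h => by
    by_contra hw
    obtain ⟨-, x, hx⟩ := hf.nondegenerate w hw
    exact hx (h x trivial)
  have := SympStructure.nd_even (B := B) (fun v => hf.alternating v) h
  rwa [finrank_top, Module.finrank_fin_fun] at this

theorem good_symplectic {H : Subgroup (GL (Fin n) F)} (hn : 3 ≤ n) {f : (Fin n → F) → (Fin n → F) → F}
    (hf : IsSymplecticForm f) (h : H ≤ similarityGroup f) : Good H := by
  obtain ⟨k, hk⟩ := even_of_alternating hf
  refine ⟨_, ?_, h⟩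
  iterate 9 right
  exact Or.inl ⟨f, hf, ⟨k, hk⟩, by omega, rfl⟩

/-- A skew matrix with zero diagonal vanishes on the diagonal pairs. -/
theorem alt_self {B : Matrix (Fin n) (Fin n) F} (hskew : Bᵀ = -B) (hdiag : ∀ i, B i i = 0) (v : Fin n → F) :
    v ⬝ᵥ (B *ᵥ v) = 0 := by
  classical
  have e : v ⬝ᵥ (B *ᵥ v) = ∑ p : Fin n × Fin n, v p.1 * (B p.1 p.2 * v p.2) := by
    simp only [Fintype.sum_prod_type, dotProduct, Matrix.mulVec, Finset.mul_sum]
  rw [e]
  refine Finset.sum_involution (fun p _ => (p.2, p.1)) (fun p _ => ?_) (fun p _ hp heq => hp ?_)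
    (fun _ _ => Finset.mem_univ _) fun _ _ => rfl
  · have : B p.2 p.1 = -(B p.1 p.2) := congrFun (congrFun hskew p.1) p.2
    rw [this]; ring
  · have h1 : p.2 = p.1 := congrArg Prod.fst heq
    rw [h1, hdiag]; ring

theorem good_of_alt {H : Subgroup (GL (Fin n) F)} (hn : 3 ≤ n) {B : Matrix (Fin n) (Fin n) F} (hB : IsUnit B.det)
    (hskew : Bᵀ = -B) (hdiag : ∀ i, B i i = 0)
    (hsim : ∀ g ∈ H, ∃ c : Fˣ, (g : Matrix (Fin n) (Fin n) F)ᵀ * B * (g : Matrix (Fin n) (Fin n) F).map
      (RingEquiv.refl F) = (c : F) • B) : Good H := by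
  classical
  refine good_symplectic hn (f := matForm (RingEquiv.refl F) B) ⟨bilinear_matForm B, fun v w => ?_, fun v => ?_,
    nondeg_matForm hB⟩ fun g hg => mem_similarity (hsim g hg).choose_spec
  · show v ⬝ᵥ (B *ᵥ w) = -(w ⬝ᵥ (B *ᵥ v))
    rw [Matrix.dotProduct_mulVec v, dotProduct_comm, ← Matrix.mulVec_transpose, hskew, Matrix.neg_mulVec,
      dotProduct_neg]
  · exact alt_self hskew hdiag v

theorem odd_card (h2 : (2 : F) ≠ 0) : Odd (Fintype.card F) := by
  refine Nat.odd_iff.mpr (FiniteField.odd_card_of_char_ne_two fun hc => h2 ?_)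
  haveI : CharP F 2 := hc ▸ (inferInstance : CharP F (ringChar F))
  simpa using CharP.cast_eq_zero F 2

theorem good_of_symm {H : Subgroup (GL (Fin n) F)} (hn : 3 ≤ n) (h2 : (2 : F) ≠ 0) {B : Matrix (Fin n) (Fin n) F}
    (hB : IsUnit B.det) (hsymm : Bᵀ = B)
    (hsim : ∀ g ∈ H, ∃ c : Fˣ, (g : Matrix (Fin n) (Fin n) F)ᵀ * B * (g : Matrix (Fin n) (Fin n) F).map
      (RingEquiv.refl F) = (c : F) • B) : Good H := by
  let Q : (Fin n → F) → F := fun v => matForm (RingEquiv.refl F) B v v * 2⁻¹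
  have hb := bilinear_matForm B
  have hsw : ∀ x y, matForm (RingEquiv.refl F) B x y = matForm (RingEquiv.refl F) B y x := fun x y => by
    show x ⬝ᵥ (B *ᵥ y) = y ⬝ᵥ (B *ᵥ x)
    rw [Matrix.dotProduct_mulVec x, dotProduct_comm, ← Matrix.mulVec_transpose, hsymm]
  have hpol : QuadraticMap.polar Q = matForm (RingEquiv.refl F) B := by
    funext x y
    simp only [QuadraticMap.polar, Q, hb.add_left, hb.add_right, hsw y x]
    field_simp
    ring
  have hQ : IsNondegenerateQuadraticForm Q :=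
    { smul := fun c v => by simp only [Q, hb.smul_left, hb.smul_right]; ring
      polar_bilinear := hpol ▸ hb
      nondegenerate := hpol ▸ nondeg_matForm hB }
  refine ⟨quadSimilarityGroup Q, ?_, fun g hg => ?_⟩
  · iterate 11 right
    exact ⟨Q, hQ, odd_card h2, hn, rfl⟩
  · obtain ⟨c, hc⟩ := mem_similarity (hsim g hg).choose_spec
    exact ⟨c, fun v => by simp only [Q, hc, mul_assoc]⟩

theorem good_of_herm {H : Subgroup (GL (Fin n) F)} (hn : 3 ≤ n) {σ : F ≃+* F} (hσ : σ ≠ RingEquiv.refl F)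
    (hinv : ∀ a, σ (σ a) = a) {B : Matrix (Fin n) (Fin n) F}
    (hB : IsUnit B.det) (hherm : Bᵀ.map σ = B)
    (hsim : ∀ g ∈ H, ∃ c : Fˣ, (g : Matrix (Fin n) (Fin n) F)ᵀ * B * (g : Matrix (Fin n) (Fin n) F).map σ =
      (c : F) • B) : Good H := by
  refine ⟨similarityGroup (matForm σ B), ?_, fun g hg => mem_similarity (hsim g hg).choose_spec⟩
  iterate 10 right
  left
  refine ⟨σ, matForm σ B, ⟨hσ, hinv, fun x y v => add_dotProduct x y _, fun c x v => by simp [matForm, smul_dotProduct],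
    fun v w => ?_, nondeg_matForm hB⟩, hn, rfl⟩
  simp only [matForm, dotProduct, Matrix.mulVec, Finset.mul_sum, map_sum, map_mul, hinv]
  rw [Finset.sum_comm]
  refine Finset.sum_congr rfl fun i _ => Finset.sum_congr rfl fun j _ => ?_
  conv_lhs => rw [← hherm]
  rw [Matrix.map_apply, Matrix.transpose_apply]
  ring

/-- A fixed form of a spanning group is fixed up to scalars by its normaliser. -/
theorem similar_of_normalises {X : Subgroup (GL (Fin n) F)} (hX : Full X) (σ : F ≃+* F)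
    {B C : Matrix (Fin n) (Fin n) F} (hB : IsUnit B.det)
    (hfixB : ∀ x ∈ X, (x : Matrix (Fin n) (Fin n) F)ᵀ * B * (x : Matrix (Fin n) (Fin n) F).map σ = B)
    (hfixC : ∀ x ∈ X, (x : Matrix (Fin n) (Fin n) F)ᵀ * C * (x : Matrix (Fin n) (Fin n) F).map σ = C) :
    ∃ c : F, C = c • B := by
  have hinv := Matrix.mul_nonsing_inv B hB
  have hcomm : ∀ x ∈ X, (B⁻¹ * C).map σ.symm * (x : Matrix (Fin n) (Fin n) F) =
      (x : Matrix (Fin n) (Fin n) F) * (B⁻¹ * C).map σ.symm := by
    intro x hx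
    have hxx : (B⁻¹ * C) * (x : Matrix (Fin n) (Fin n) F).map σ =
        (x : Matrix (Fin n) (Fin n) F).map σ * (B⁻¹ * C) := by
      set g := (x : Matrix (Fin n) (Fin n) F)
      have hu : IsUnit gᵀ.det := by
        rw [Matrix.det_transpose]; exact (Matrix.isUnit_iff_isUnit_det _).mp x.isUnit
      have e1 : B * g.map σ = gᵀ⁻¹ * B := by
        conv_rhs => rw [← hfixB x hx]
        rw [← mul_assoc, ← mul_assoc, Matrix.nonsing_inv_mul _ hu, one_mul]
      have e2 : C * g.map σ = gᵀ⁻¹ * C := by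
        conv_rhs => rw [← hfixC x hx]
        rw [← mul_assoc, ← mul_assoc, Matrix.nonsing_inv_mul _ hu, one_mul]
      calc B⁻¹ * C * g.map σ = B⁻¹ * (gᵀ⁻¹ * C) := by rw [mul_assoc, e2]
        _ = B⁻¹ * (gᵀ⁻¹ * B) * (B⁻¹ * C) := by
            simp only [mul_assoc]; rw [← mul_assoc B, hinv, one_mul]
        _ = g.map σ * (B⁻¹ * C) := by
            rw [← e1, ← mul_assoc B⁻¹ B, Matrix.nonsing_inv_mul B hB, one_mul]
    have := congrArg (fun M : Matrix (Fin n) (Fin n) F => M.map σ.symm) hxx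
    simpa [Matrix.map_mul, Matrix.map_map, Function.comp_def] using this
  obtain ⟨c, hc⟩ := hX.comm_scalar hcomm
  refine ⟨σ c, ?_⟩
  have := congrArg (fun M : Matrix (Fin n) (Fin n) F => B * M.map σ) hc
  simpa [Matrix.map_map, Function.comp_def, ← mul_assoc, hinv, Matrix.map_smul'] using this

/-- The normaliser of a spanning group fixing a nondegenerate form consists of similarities. -/
theorem sim_of_fix {X : Subgroup (GL (Fin n) F)} (hX : Full X) {σ : F ≃+* F} {B : Matrix (Fin n) (Fin n) F}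
    (hB : IsUnit B.det)
    (hfix : ∀ x ∈ X, (x : Matrix (Fin n) (Fin n) F)ᵀ * B * (x : Matrix (Fin n) (Fin n) F).map σ = B)
    {g : GL (Fin n) F} (hg : ∀ x ∈ X, g * x * g⁻¹ ∈ X) :
    ∃ c : Fˣ, (g : Matrix (Fin n) (Fin n) F)ᵀ * B * (g : Matrix (Fin n) (Fin n) F).map σ = (c : F) • B := by
  obtain ⟨c, hc⟩ := similar_of_normalises hX σ hB hfix (C := (g : Matrix (Fin n) (Fin n) F)ᵀ * B *
    (g : Matrix (Fin n) (Fin n) F).map σ) fun x hx => by
      have h := hfix _ (hg x hx)
      have e : (g : Matrix (Fin n) (Fin n) F) * x = ((g * x * g⁻¹ : GL (Fin n) F) : Matrix (Fin n) (Fin n) F) * g := by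
        rw [← Units.val_mul, ← Units.val_mul, inv_mul_cancel_right]
      calc _ = ((g : Matrix (Fin n) (Fin n) F) * (x : Matrix (Fin n) (Fin n) F))ᵀ * B *
          ((g : Matrix (Fin n) (Fin n) F) * (x : Matrix (Fin n) (Fin n) F)).map σ := by
              simp only [Matrix.transpose_mul, Matrix.map_mul, mul_assoc]
        _ = _ := by
              rw [e]
              conv_rhs => rw [← h]
              simp only [Matrix.transpose_mul, Matrix.map_mul, mul_assoc]
  rcases eq_or_ne c 0 with h0 | h0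
  · rcases Nat.eq_zero_or_pos n with rfl | hn
    · exact ⟨1, Subsingleton.elim _ _⟩
    haveI : Nonempty (Fin n) := ⟨⟨0, hn⟩⟩
    exfalso
    have hd := congrArg Matrix.det hc
    rw [h0, zero_smul, Matrix.det_zero, Matrix.det_mul, Matrix.det_mul, Matrix.det_transpose] at hd
    have hu := (Matrix.isUnit_iff_isUnit_det _).mp g.isUnit
    have hu' : IsUnit ((g : Matrix (Fin n) (Fin n) F).map σ).det := by
      rw [show (g : Matrix (Fin n) (Fin n) F).map σ = σ.toRingHom.mapMatrix (g : Matrix (Fin n) (Fin n) F) from rfl,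
        ← RingHom.map_det]
      exact hu.map σ.toRingHom
    exact ((hu.mul hB).mul hu').ne_zero hd
  · exact ⟨Units.mk0 c h0, hc⟩

end Cfsg.Agent.GeomClasses.Asch
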