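import Cfsg.Agent.GeomClasses.Aschbacher.Factors
import Cfsg.Agent.GeomClasses.Aschbacher.Forms

/-! # Tensor decompositions and geometric classes -/

set_option autoImplicit false

namespace Cfsg.Agent.GeomClasses.Asch

open Matrix Cfsg.Geo

variable {F : Type*} [Field F] {n : ℕ}

/-- An invertible matrix as an invertible operator. -/
noncomputable def gu : GL (Fin n) F →* (Module.End F (Fin n → F))ˣ :=
  Units.map (Matrix.toLinAlgEquiv' : Matrix (Fin n) (Fin n) F ≃ₐ[F] _).toAlgHom.toMonoidHom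

theorem gu_coe (g : GL (Fin n) F) :
    (gu g : Module.End F (Fin n → F)) = Matrix.toLin' (g : Matrix (Fin n) (Fin n) F) := rfl

theorem gu_apply (g : GL (Fin n) F) (v : Fin n → F) :
    (gu g : Module.End F (Fin n → F)) v = (g : Matrix (Fin n) (Fin n) F) *ᵥ v := Matrix.toLin'_apply _ _

section Coord

variable {κ : Type} [Fintype κ] [DecidableEq κ] (b : Module.Basis κ F (Fin n → F))

/-- The matrix of an operator in a basis. -/
noncomputable def coordGL : GL (Fin n) F →* GL κ F :=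
  (Units.map (LinearMap.toMatrixAlgEquiv b).toAlgHom.toMonoidHom).comp gu

theorem coordGL_apply (g : GL (Fin n) F) (x y : κ) :
    (coordGL b g : Matrix κ κ F) x y = b.repr ((gu g : Module.End F (Fin n → F)) (b y)) x :=
  LinearMap.toMatrixAlgEquiv_apply b _ x y

/-- The change of coordinates. -/
noncomputable def frameGL (e : Fin n ≃ κ) : GL (Fin n) F :=
  ⟨(Pi.basisFun F (Fin n)).toMatrix (b.reindex e.symm), (b.reindex e.symm).toMatrix (Pi.basisFun F (Fin n)),
    Module.Basis.toMatrix_mul_toMatrix_flip _ _, Module.Basis.toMatrix_mul_toMatrix_flip _ _⟩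

theorem conj_coord (e : Fin n ≃ κ) (g : GL (Fin n) F) :
    frameGL b e * glReindex e.symm (coordGL b g) * (frameGL b e)⁻¹ = g := by
  have hre : ((glReindex e.symm (coordGL b g) : GL (Fin n) F) : Matrix (Fin n) (Fin n) F) =
      LinearMap.toMatrix (b.reindex e.symm) (b.reindex e.symm) (Matrix.toLin' (g : Matrix (Fin n) (Fin n) F)) := by
    ext x y
    show (coordGL b g : Matrix κ κ F) (e.symm.symm x) (e.symm.symm y) = _
    rw [coordGL_apply, LinearMap.toMatrix_apply, gu_coe]
    simp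
  refine Units.ext ?_
  rw [Units.val_mul, Units.val_mul, hre]
  show (Pi.basisFun F (Fin n)).toMatrix (b.reindex e.symm) * _ * (b.reindex e.symm).toMatrix (Pi.basisFun F (Fin n)) = _
  rw [basis_toMatrix_mul_linearMap_toMatrix_mul_basis_toMatrix, LinearMap.toMatrix_eq_toMatrix',
    LinearMap.toMatrix'_toLin']

theorem le_conj_reindex {H : Subgroup (GL (Fin n) F)} {K : Subgroup (GL κ F)} (e : Fin n ≃ κ)
    (h : ∀ g ∈ H, coordGL b g ∈ K) :
    H ≤ (K.map (glReindex e.symm).toMonoidHom).map (MulAut.conj (frameGL b e)).toMonoidHom := by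
  intro g hg
  refine ⟨glReindex e.symm (coordGL b g), ⟨coordGL b g, h g hg, rfl⟩, ?_⟩
  exact conj_coord b e g

include b in
theorem finEquiv : Nonempty (Fin n ≃ κ) := by
  refine ⟨(Fintype.equivFinOfCardEq ?_).symm⟩
  rw [← Module.finrank_eq_card_basis b, Module.finrank_fin_fun]

end Coord

variable [Fintype F] [Nontrivial (Fin n → F)]

theorem good_pair_aux {H : Subgroup (GL (Fin n) F)} {d : Fin 2 → ℕ} (h₁ : 2 ≤ d 0) (h₂ : d 0 < d 1)
    (φ : ∀ i, Matrix (Fin (d i)) (Fin (d i)) F →ₐ[F] Module.End F (Fin n → F))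
    (hc : Pairwise fun i j => ∀ X Y, Commute (φ i X) (φ j Y)) (hi : Irr (⋃ i, Set.range (φ i)))
    (hfix : ∀ g ∈ H, ∀ i X, (gu g : Module.End F (Fin n → F)) * φ i X * ((gu g)⁻¹).val ∈ Set.range (φ i)) :
    Good H := by
  classical
  have hd : ∀ i, 0 < d i := by
    rw [Fin.forall_fin_two]; omega
  obtain ⟨b, hb⟩ := exists_tensor_basis φ hc hd hi
  let E : (∀ i, Fin (d i)) ≃ Fin (d 0) × Fin (d 1) := piFinTwoEquiv fun i => Fin (d i)
  obtain ⟨e⟩ := finEquiv (b.reindex E)
  refine ⟨tensorProductSubgroup (d 0) (d 1) e (frameGL (b.reindex E) e), ?_,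
    le_conj_reindex (b.reindex E) e fun g hg => ?_⟩
  · iterate 5 right
    exact Or.inl ⟨d 0, d 1, e, _, h₁, h₂, rfl⟩
  obtain ⟨c, a, ha⟩ := exists_factor φ hc hd hi (gu g) (hfix g hg)
  have hc0 : c ≠ 0 := fun h0 => (gu g).ne_zero (by rw [ha, h0, zero_smul])
  refine ⟨Units.map (algebraMap F (Matrix (Fin (d 0)) (Fin (d 0)) F)).toMonoidHom (Units.mk0 c hc0) * a 0, a 1, ?_⟩
  ext x y
  rw [coordGL_apply, Module.Basis.reindex_apply, Module.Basis.repr_reindex_apply, ha, LinearMap.smul_apply,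
    map_smul, Finsupp.smul_apply, hb, Fin.prod_univ_two]
  show c * ((a 0 : Matrix (Fin (d 0)) (Fin (d 0)) F) x.1 y.1 * (a 1 : Matrix (Fin (d 1)) (Fin (d 1)) F) x.2 y.2) =
    ((algebraMap F (Matrix (Fin (d 0)) (Fin (d 0)) F) c * (a 0 : Matrix (Fin (d 0)) (Fin (d 0)) F)) x.1 y.1) * _
  rw [← Algebra.smul_def, Matrix.smul_apply, smul_eq_mul, mul_assoc]

/-- Two commuting factors normalised by the group. -/
theorem good_pair {H : Subgroup (GL (Fin n) F)} {n₁ n₂ : ℕ} (h₁ : 2 ≤ n₁) (h₂ : n₁ < n₂)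
    (φ₁ : Matrix (Fin n₁) (Fin n₁) F →ₐ[F] Module.End F (Fin n → F))
    (φ₂ : Matrix (Fin n₂) (Fin n₂) F →ₐ[F] Module.End F (Fin n → F))
    (hcomm : ∀ X Y, Commute (φ₁ X) (φ₂ Y)) (hirr : Irr (Set.range φ₁ ∪ Set.range φ₂))
    (hn1 : ∀ g ∈ H, ∀ X, (gu g : Module.End F (Fin n → F)) * φ₁ X * ((gu g)⁻¹).val ∈ Set.range φ₁)
    (hn2 : ∀ g ∈ H, ∀ X, (gu g : Module.End F (Fin n → F)) * φ₂ X * ((gu g)⁻¹).val ∈ Set.range φ₂) :
    Good H := by
  let d : Fin 2 → ℕ := ![n₁, n₂]
  let φ : ∀ i, Matrix (Fin (d i)) (Fin (d i)) F →ₐ[F] Module.End F (Fin n → F) :=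
    Fin.cons (α := fun i => Matrix (Fin (d i)) (Fin (d i)) F →ₐ[F] Module.End F (Fin n → F)) φ₁
      (Fin.cons φ₂ finZeroElim)
  refine good_pair_aux (d := d) h₁ h₂ φ ?_ ?_ fun g hg => ?_
  · intro i j h
    revert h
    revert i j
    simp only [Fin.forall_fin_two]
    exact ⟨⟨fun h => absurd rfl h, fun _ X Y => hcomm X Y⟩, ⟨fun _ X Y => (hcomm Y X).symm, fun h => absurd rfl h⟩⟩
  · exact fun W hW => hirr W fun s hs => hW s <| Set.mem_iUnion.mpr <| by
      rcases hs with hs | hs
      · exact ⟨0, hs⟩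
      · exact ⟨1, hs⟩
  · rw [Fin.forall_fin_two]; exact ⟨hn1 g hg, hn2 g hg⟩

/-- The alternating matrix in two variables. -/
def J₂ : Matrix (Fin 2) (Fin 2) F := !![0, 1; -1, 0]

/-- The Gram matrix of the tensor power of the alternating form in two variables. -/
def powJ (t : ℕ) : Matrix (Fin t → Fin 2) (Fin t → Fin 2) F :=
  Matrix.of fun x y => ∏ i, J₂ (x i) (y i)

/-- Commuting factors of equal degree permuted by the group. -/
theorem good_power {H : Subgroup (GL (Fin n) F)} (hn : 3 ≤ n) {m t : ℕ} (hm : 2 ≤ m) (ht : 2 ≤ t)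
    (φ : Fin t → (Matrix (Fin m) (Fin m) F →ₐ[F] Module.End F (Fin n → F)))
    (hcomm : Pairwise fun i j => ∀ X Y, Commute (φ i X) (φ j Y)) (hirr : Irr (⋃ i, Set.range (φ i)))
    (hperm : ∀ g ∈ H, ∃ σ : Equiv.Perm (Fin t), ∀ i X,
      (gu g : Module.End F (Fin n → F)) * φ i X * ((gu g)⁻¹).val ∈ Set.range (φ (σ i))) : Good H := by
  classical
  obtain ⟨b, hb⟩ := exists_tensor_basis φ hcomm (fun _ => by omega) hirr
  have key : ∀ g ∈ H, ∃ (σ : Equiv.Perm (Fin t)) (c : F) (a : Fin t → GL (Fin m) F), c ≠ 0 ∧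
      ∀ x y, (coordGL b g : Matrix (Fin t → _) (Fin t → _) F) x y = c * ∏ i, (a i : Matrix (Fin m) (Fin m) F) (x (σ i)) (y i) := by
    intro g hg
    obtain ⟨σ, hσ⟩ := hperm g hg
    let π : (Fin n → F) ≃ₗ[F] (Fin n → F) := b.equiv b (Equiv.arrowCongr σ (Equiv.refl (Fin m)))
    have hπb : ∀ y, π (b y) = b (y ∘ σ.symm) := fun y => by
      rw [Module.Basis.equiv_apply]; rfl
    let πu : (Module.End F (Fin n → F))ˣ := ⟨π.toLinearMap, π.symm.toLinearMap,
      LinearMap.ext π.apply_symm_apply, LinearMap.ext π.symm_apply_apply⟩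
    have hπφ : ∀ i X, φ (σ i) X * (πu : Module.End F (Fin n → F)) = (πu : Module.End F (Fin n → F)) * φ i X := by
      intro i X
      refine b.ext fun y => b.repr.injective (Finsupp.ext fun x => ?_)
      show b.repr (φ (σ i) X (π (b y))) x = b.repr (π (φ i X (b y))) x
      rw [hπb, ← tup_mulSingle φ hcomm (σ i) X, hb, ← tup_mulSingle φ hcomm i X,
        ← b.sum_repr (tup φ hcomm (Pi.mulSingle i X) (b y)), map_sum, map_sum, Finsupp.finset_sum_apply,
        Finset.sum_eq_single (x ∘ σ)]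
      · rw [map_smul, map_smul, hπb, Finsupp.smul_apply, b.repr_self, hb,
          show (x ∘ σ) ∘ σ.symm = x from funext fun k => congrArg x (σ.apply_symm_apply k),
          Finsupp.single_eq_same, smul_eq_mul, mul_one]
        refine (Fintype.prod_equiv σ _ _ fun k => ?_).symm
        by_cases h : k = i
        · subst h; simp
        · simp [Pi.mulSingle_eq_of_ne h, Pi.mulSingle_eq_of_ne (fun hh => h (σ.injective hh))]
      · intro z _ hz
        rw [map_smul, map_smul, hπb, Finsupp.smul_apply, b.repr_self, Finsupp.single_eq_of_ne, smul_zero]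
        intro h; exact hz (funext fun k => by rw [h]; simp)
      · simp
    obtain ⟨c, a, ha⟩ := exists_factor φ hcomm (fun _ => by omega) hirr (πu⁻¹ * gu g) fun i X => by
      obtain ⟨Y, hY⟩ := hσ i X
      refine ⟨Y, ?_⟩
      have hπ2 : (πu⁻¹).val * φ (σ i) Y = φ i Y * (πu⁻¹).val := by
        calc _ = (πu⁻¹).val * (φ (σ i) Y * (πu : Module.End F (Fin n → F))) * (πu⁻¹).val := by
              simp [mul_assoc]
          _ = _ := by rw [hπφ, ← mul_assoc, Units.inv_mul, one_mul]
      symm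
      calc _ = (πu⁻¹).val * ((gu g : Module.End F (Fin n → F)) * φ i X * ((gu g)⁻¹).val) * (πu : Module.End F (Fin n → F)) := by
            simp [mul_assoc]
        _ = φ i Y := by rw [← hY, hπ2, mul_assoc, Units.inv_mul, mul_one]
    refine ⟨σ, c, a, fun h0 => (πu⁻¹ * gu g).ne_zero (by rw [ha, h0, zero_smul]), fun x y => ?_⟩
    have e : (gu g : Module.End F (Fin n → F)) =
        c • ((πu : Module.End F (Fin n → F)) * tup φ hcomm fun i => (a i : Matrix (Fin m) (Fin m) F)) := by
      rw [← mul_smul_comm, ← ha, Units.val_mul, ← mul_assoc, Units.mul_inv, one_mul]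
    rw [coordGL_apply, e, LinearMap.smul_apply, map_smul, Finsupp.smul_apply, smul_eq_mul]
    congr 1
    show b.repr (π (tup φ hcomm _ (b y))) x = _
    rw [← b.sum_repr (tup φ hcomm _ (b y)), map_sum, map_sum, Finsupp.finset_sum_apply,
      Finset.sum_eq_single (x ∘ σ)]
    · rw [map_smul, map_smul, hπb, Finsupp.smul_apply, b.repr_self, hb,
        show (x ∘ σ) ∘ σ.symm = x from funext fun k => congrArg x (σ.apply_symm_apply k),
        Finsupp.single_eq_same, smul_eq_mul, mul_one]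
      rfl
    · intro z _ hz
      rw [map_smul, map_smul, hπb, Finsupp.smul_apply, b.repr_self, Finsupp.single_eq_of_ne, smul_zero]
      intro h; exact hz (funext fun k => by rw [h]; simp)
    · simp
  obtain ⟨e⟩ := finEquiv b
  by_cases hm3 : 3 ≤ m
  · refine ⟨tensorWreathSubgroup m t e (frameGL b e), ?_, le_conj_reindex b e fun g hg => ?_⟩
    · iterate 8 right
      exact Or.inl ⟨m, t, e, _, hm3, ht, rfl⟩
    obtain ⟨σ, c, a, hc, hga⟩ := key g hg
    let Pσ : Matrix (Fin t → Fin m) (Fin t → Fin m) F := Matrix.of fun x y => if y = x ∘ σ then 1 else 0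
    let Pσ' : Matrix (Fin t → Fin m) (Fin t → Fin m) F := Matrix.of fun x y => if y = x ∘ σ.symm then 1 else 0
    have hmul : ∀ (τ : Equiv.Perm (Fin t)) (M : Matrix (Fin t → Fin m) (Fin t → Fin m) F) x y,
        ((Matrix.of fun x y : Fin t → Fin m => if y = x ∘ τ then (1 : F) else 0) * M) x y = M (x ∘ τ) y := by
      intro τ M x y
      simp [Matrix.mul_apply]
    let p : GL (Fin t → Fin m) F := ⟨Pσ, Pσ', by
        ext x y
        rw [hmul]; simp only [Pσ', Matrix.of_apply, Matrix.one_apply]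
        refine if_congr ?_ rfl rfl
        rw [show (x ∘ σ) ∘ σ.symm = x from funext fun k => congrArg x (σ.apply_symm_apply k)]
        exact eq_comm, by
        ext x y
        rw [hmul]; simp only [Pσ, Matrix.of_apply, Matrix.one_apply]
        refine if_congr ?_ rfl rfl
        rw [show (x ∘ σ.symm) ∘ σ = x from funext fun k => congrArg x (σ.symm_apply_apply k)]
        exact eq_comm⟩
    have hp : p ∈ tensorWreathStandard m t F := Subgroup.subset_closure (Or.inr ⟨σ, fun _ _ => rfl⟩)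
    suffices h : IsPureTensor m t (p⁻¹ * coordGL b g) by
      have := mul_mem hp (Subgroup.subset_closure (Or.inl h) :
        p⁻¹ * coordGL b g ∈ tensorWreathStandard m t F)
      rwa [mul_inv_cancel_left] at this
    let i₀ : Fin t := ⟨0, by omega⟩
    refine ⟨Function.update a i₀
      (Units.map (algebraMap F (Matrix (Fin m) (Fin m) F)).toMonoidHom (Units.mk0 c hc) * a i₀), fun x y => ?_⟩
    rw [Units.val_mul, show ((p⁻¹ : GL (Fin t → Fin m) F) : Matrix _ _ F) = Pσ' from rfl, hmul, hga,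
      ← Finset.mul_prod_erase _ _ (Finset.mem_univ i₀), ← Finset.mul_prod_erase Finset.univ _ (Finset.mem_univ i₀)]
    rw [Function.update_self, Units.val_mul]
    show c * _ = (algebraMap F (Matrix (Fin m) (Fin m) F) c * (a i₀ : Matrix (Fin m) (Fin m) F)) _ _ * _
    rw [← Algebra.smul_def, Matrix.smul_apply, smul_eq_mul, ← mul_assoc]
    congr 1
    · simp
    · refine Finset.prod_congr rfl fun i hi => ?_
      rw [Function.update_of_ne (Finset.ne_of_mem_erase hi)]
      simp
  obtain rfl : m = 2 := by omega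
  have hJ : ∀ (a : Matrix (Fin 2) (Fin 2) F) (x y : Fin 2), ∑ u, ∑ v, a u x * J₂ u v * a v y = a.det * J₂ x y := by
    intro a x y
    fin_cases x <;> fin_cases y <;> simp [J₂, Matrix.det_fin_two, Fin.sum_univ_two] <;> ring
  have hB : ∀ g ∈ H, ∃ c : Fˣ, (coordGL b g : Matrix (Fin t → _) (Fin t → _) F)ᵀ * powJ t * (coordGL b g : Matrix (Fin t → _) (Fin t → _) F) =
      (c : F) • powJ t := by
    intro g hg
    obtain ⟨σ, c, a, hc, hga⟩ := key g hg
    refine ⟨Units.mk0 (c * c * ∏ i, (a i : Matrix (Fin 2) (Fin 2) F).det)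
      (mul_ne_zero (mul_ne_zero hc hc) (Finset.prod_ne_zero_iff.mpr fun i _ =>
        ((Matrix.isUnit_iff_isUnit_det _).mp (a i).isUnit).ne_zero)), ?_⟩
    ext x y
    rw [Matrix.smul_apply, smul_eq_mul, Units.val_mk0]
    simp only [Matrix.mul_apply, Matrix.transpose_apply, hga, Finset.sum_mul]
    rw [Finset.sum_comm]
    have : (c * c * ∏ i, (a i : Matrix (Fin 2) (Fin 2) F).det) * powJ t x y =
        ∑ u : Fin t → Fin 2, ∑ v : Fin t → Fin 2, c * c *
          ∏ i, (a i : Matrix (Fin 2) (Fin 2) F) (u i) (x i) * J₂ (u i) (v i) * (a i : Matrix (Fin 2) (Fin 2) F) (v i) (y i) := by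
      simp only [powJ, Matrix.of_apply]
      rw [mul_assoc, ← Finset.prod_mul_distrib]
      simp only [← hJ, Fintype.prod_sum, Finset.mul_sum]
    rw [this]
    refine Fintype.sum_equiv (Equiv.arrowCongr σ.symm (Equiv.refl _)) _ _ fun u => ?_
    refine Fintype.sum_equiv (Equiv.arrowCongr σ.symm (Equiv.refl _)) _ _ fun v => ?_
    simp only [powJ, Matrix.of_apply, Finset.prod_mul_distrib]
    rw [← Fintype.prod_equiv σ (fun i => J₂ (u (σ i)) (v (σ i))) (fun i => J₂ (u i) (v i)) fun _ => rfl]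
    show _ = c * c * ((∏ i, _ ) * (∏ i, J₂ (u (σ i)) (v (σ i))) * ∏ i, _)
    simp only [Equiv.arrowCongr_apply, Equiv.refl_apply, Function.comp_apply, Equiv.symm_symm, Equiv.coe_refl, id_eq]
    ring
  have hsq : powJ t * powJ t = ((-1 : F) ^ t) • (1 : Matrix (Fin t → Fin 2) (Fin t → Fin 2) F) := by
    ext x y
    have hJ2 : ∀ p r : Fin 2, ∑ u, J₂ p u * J₂ u r = (-1) * (1 : Matrix (Fin 2) (Fin 2) F) p r := by
      intro p r
      fin_cases p <;> fin_cases r <;> simp [J₂, Fin.sum_univ_two]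
    simp only [powJ, Matrix.mul_apply, Matrix.of_apply, Matrix.smul_apply, smul_eq_mul, ← Finset.prod_mul_distrib]
    rw [← Fintype.prod_sum (fun i u => J₂ (x i) u * J₂ u (y i))]
    simp only [hJ2, Finset.prod_mul_distrib, Finset.prod_const, Finset.card_univ, Fintype.card_fin]
    congr 1
    by_cases h : x = y
    · subst h; simp
    · obtain ⟨i, hi⟩ := Function.ne_iff.mp h
      rw [Matrix.one_apply_ne h]
      exact Finset.prod_eq_zero (Finset.mem_univ i)
        (show (1 : Matrix (Fin 2) (Fin 2) F) (x i) (y i) = 0 from Matrix.one_apply_ne hi)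
  have hT : (powJ t : Matrix (Fin t → Fin 2) (Fin t → Fin 2) F)ᵀ = ((-1 : F) ^ t) • powJ t := by
    ext x y
    have hJt : ∀ p r : Fin 2, (J₂ r p : F) = (-1) * J₂ p r := by intro p r; fin_cases p <;> fin_cases r <;> simp [J₂]
    simp only [powJ, Matrix.transpose_apply, Matrix.of_apply, Matrix.smul_apply, smul_eq_mul]
    rw [Finset.prod_congr rfl fun i _ => hJt (x i) (y i), Finset.prod_mul_distrib, Finset.prod_const,
      Finset.card_univ, Fintype.card_fin]
  let P : GL (Fin n) F := frameGL b e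
  let Q : Matrix (Fin n) (Fin n) F := (P⁻¹ : GL (Fin n) F).val
  let B₀ : Matrix (Fin n) (Fin n) F := (powJ t).submatrix e e
  let B : Matrix (Fin n) (Fin n) F := Qᵀ * B₀ * Q
  have hsim : ∀ g ∈ H, ∃ c : Fˣ, (g : Matrix (Fin n) (Fin n) F)ᵀ * B * (g : Matrix (Fin n) (Fin n) F).map
      (RingEquiv.refl F) = (c : F) • B := by
    intro g hg
    obtain ⟨c, hc⟩ := hB g hg
    refine ⟨c, ?_⟩
    set M : Matrix (Fin n) (Fin n) F :=
      ((glReindex e.symm (coordGL b g) : GL (Fin n) F) : Matrix (Fin n) (Fin n) F) with hM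
    have hM' : M = (coordGL b g : Matrix (Fin t → _) (Fin t → _) F).submatrix e e := rfl
    have hMB : Mᵀ * B₀ * M = (c : F) • B₀ := by
      rw [hM', Matrix.transpose_submatrix, Matrix.submatrix_mul_equiv, Matrix.submatrix_mul_equiv, hc]
      rfl
    have hg' : (g : Matrix (Fin n) (Fin n) F) = (P : Matrix (Fin n) (Fin n) F) * M * Q := by
      conv_lhs => rw [← conj_coord b e g]
      rfl
    have hQP : Q * (P : Matrix (Fin n) (Fin n) F) = 1 := P.inv_mul
    have hmap : (g : Matrix (Fin n) (Fin n) F).map (RingEquiv.refl F) = g := by ext i j; rfl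
    rw [hmap, hg']
    calc _ = Qᵀ * (Mᵀ * ((Q * (P : Matrix (Fin n) (Fin n) F))ᵀ * B₀ * (Q * (P : Matrix (Fin n) (Fin n) F))) * M) * Q := by
          simp only [B, Matrix.transpose_mul, mul_assoc]
      _ = _ := by
          rw [hQP, Matrix.transpose_one, one_mul, mul_one, hMB]
          simp [B, mul_assoc]
  have hunit : IsUnit B.det := by
    have h0 : IsUnit B₀.det := by
      refine (Matrix.isUnit_iff_isUnit_det _).mp ⟨⟨B₀, ((-1 : F) ^ t) • B₀, ?_, ?_⟩, rfl⟩
      · rw [Matrix.mul_smul, Matrix.submatrix_mul_equiv, hsq]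
        ext i j; simp [Matrix.one_apply, e.injective.eq_iff, ← mul_assoc, ← mul_pow]
      · rw [Matrix.smul_mul, Matrix.submatrix_mul_equiv, hsq]
        ext i j; simp [Matrix.one_apply, e.injective.eq_iff, ← mul_assoc, ← mul_pow]
    have hQ : IsUnit Q.det := (Matrix.isUnit_iff_isUnit_det _).mp (P⁻¹).isUnit
    simp only [B, Matrix.det_mul, Matrix.det_transpose]
    exact (hQ.mul h0).mul hQ
  have hBt : Bᵀ = ((-1 : F) ^ t) • B := by
    simp only [B, Matrix.transpose_mul, Matrix.transpose_transpose, B₀, Matrix.transpose_submatrix, hT]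
    simp [mul_assoc, Matrix.submatrix_smul]
  by_cases h1 : ((-1 : F) ^ t) = -1
  · refine good_of_alt hn hunit (by rw [hBt, h1, neg_one_smul]) (fun i => ?_) hsim
    have h0skew : B₀ᵀ = -B₀ := by
      simp only [B₀, Matrix.transpose_submatrix, hT, h1]
      ext i j; simp
    have : B i i = (fun k => Q k i) ⬝ᵥ (B₀ *ᵥ fun k => Q k i) := by
      simp only [B, mul_assoc, Matrix.mul_apply, Matrix.transpose_apply, dotProduct, Matrix.mulVec]
    rw [this]
    refine alt_self h0skew (fun k => ?_) _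
    exact Finset.prod_eq_zero (Finset.mem_univ (⟨0, by omega⟩ : Fin t))
      (by generalize e k ⟨0, _⟩ = z; fin_cases z <;> simp [J₂])
  · rcases Nat.even_or_odd t with hev | hod
    · refine good_of_symm hn (fun h2 => h1 ?_) hunit (by rw [hBt, hev.neg_one_pow, one_smul]) hsim
      rw [hev.neg_one_pow]; linear_combination h2
    · exact absurd hod.neg_one_pow h1

end Cfsg.Agent.GeomClasses.Asch
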