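import Cfsg.Agent.GeomClasses.Aschbacher.CentralType

/-! # Operators normalising commuting matrix factors -/

set_option autoImplicit false

namespace Cfsg.Agent.GeomClasses.Asch

open Module Finset

variable {F : Type*} [Field F] {V : Type*} [AddCommGroup V] [Module F V]

/-- Conjugation by a unit as an algebra homomorphism. -/
def conjHom (g : (Module.End F V)ˣ) : Module.End F V →ₐ[F] Module.End F V where
  toFun X := (g : Module.End F V) * X * (g⁻¹ : (Module.End F V)ˣ).val
  map_one' := by simp
  map_mul' X Y := by simp [mul_assoc]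
  map_zero' := by simp
  map_add' X Y := by simp [mul_add, add_mul]
  commutes' c := by rw [← Algebra.commutes, mul_assoc, Units.mul_inv, mul_one]

theorem conjHom_apply (g : (Module.End F V)ˣ) (X : Module.End F V) :
    conjHom g X = (g : Module.End F V) * X * (g⁻¹ : (Module.End F V)ˣ).val := rfl

variable [FiniteDimensional F V] [Nontrivial V] {t : ℕ} {d : Fin t → ℕ}
  (φ : ∀ i, Matrix (Fin (d i)) (Fin (d i)) F →ₐ[F] Module.End F V)
  (hcomm : Pairwise fun i j => ∀ X Y, Commute (φ i X) (φ j Y))

include hcomm in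
theorem tup_mul_phi (j : Fin t) (X : Matrix (Fin (d j)) (Fin (d j)) F)
    (g : ∀ i, Matrix (Fin (d i)) (Fin (d i)) F) :
    tup φ hcomm g * φ j X = tup φ hcomm (Function.update g j (g j * X)) := by
  rw [← tup_mulSingle φ hcomm, ← map_mul]
  congr 1
  funext i
  by_cases h : i = j
  · subst h; simp
  · simp [Function.update_of_ne h, Pi.mulSingle_eq_of_ne h]

theorem phi_injective (hd : ∀ i, 0 < d i) (j : Fin t) : Function.Injective (φ j) := by
  haveI : Nonempty (Fin (d j)) := ⟨⟨0, hd j⟩⟩
  exact RingHom.injective (φ j).toRingHom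

include hcomm in
/-- An operator fixing every factor is a tensor product. -/
theorem exists_factor (hd : ∀ i, 0 < d i) (hirr : Irr (⋃ i, Set.range (φ i))) (g : (Module.End F V)ˣ)
    (hg : ∀ i X, (g : Module.End F V) * φ i X * (g⁻¹ : (Module.End F V)ˣ).val ∈ Set.range (φ i)) :
    ∃ (c : F) (a : ∀ i, GL (Fin (d i)) F),
      (g : Module.End F V) = c • tup φ hcomm (fun i => (a i : Matrix (Fin (d i)) (Fin (d i)) F)) := by
  classical
  have key : ∀ i, ∃ a : GL (Fin (d i)) F, ∀ X, (g : Module.End F V) * φ i X =
      φ i ((a : Matrix (Fin (d i)) (Fin (d i)) F) * X * (a⁻¹ : GL (Fin (d i)) F).val) * g := by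
    intro i
    let α : Matrix (Fin (d i)) (Fin (d i)) F →ₐ[F] Matrix (Fin (d i)) (Fin (d i)) F :=
      (AlgEquiv.ofInjective (φ i) (phi_injective φ hd i)).symm.toAlgHom.comp
        (((conjHom g).comp (φ i)).codRestrict (φ i).range fun X => hg i X)
    have hα : ∀ X, φ i (α X) = conjHom g (φ i X) := fun X =>
      congrArg Subtype.val ((AlgEquiv.ofInjective (φ i) (phi_injective φ hd i)).apply_symm_apply _)
    haveI : Nonempty (Fin (d i)) := ⟨⟨0, hd i⟩⟩
    have hinj : Function.Injective α := RingHom.injective α.toRingHom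
    obtain ⟨a, ha⟩ := exists_inner (AlgEquiv.ofBijective α
      ⟨hinj, LinearMap.injective_iff_surjective (f := α.toLinearMap) |>.mp hinj⟩)
    refine ⟨a, fun X => ?_⟩
    rw [← ha X]
    show _ = φ i (α X) * _
    rw [hα, conjHom_apply, mul_assoc, Units.inv_mul, mul_one]
  choose a ha using key
  obtain ⟨c, hc⟩ := commute_all_scalar φ hcomm hd hirr
    (X := tup φ hcomm (fun i => ((a i)⁻¹ : GL (Fin (d i)) F).val) * g) fun i X => by
      show _ * _ = _ * _
      rw [mul_assoc, ha i X, ← mul_assoc, tup_mul_phi φ hcomm, ← mul_assoc (φ i X), phi_mul_tup φ hcomm]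
      congr 3
      simp [← mul_assoc]
  refine ⟨c, a, ?_⟩
  rw [Algebra.smul_def, ← hc, mul_assoc]
  have h1 : tup φ hcomm (fun i => ((a i)⁻¹ : GL (Fin (d i)) F).val) *
      tup φ hcomm (fun i => (a i : Matrix (Fin (d i)) (Fin (d i)) F)) = 1 := by
    rw [← map_mul, ← map_one (tup φ hcomm)]
    congr 1
    funext i
    simp
  have h2 : Commute (g : Module.End F V) (tup φ hcomm fun i => (a i : Matrix (Fin (d i)) (Fin (d i)) F)) := by
    refine Finset.noncommProd_commute _ _ _ _ fun i _ => ?_
    show (g : Module.End F V) * φ i (a i : Matrix (Fin (d i)) (Fin (d i)) F) = _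
    rw [ha i]; simp
  rw [h2.eq, ← mul_assoc, h1, one_mul]

include hcomm in
/-- An operator commuting with all but one factor lies in the remaining one. -/
theorem mem_range_of_commute (hd : ∀ i, 0 < d i) (hirr : Irr (⋃ i, Set.range (φ i))) (j : Fin t)
    {Y : Module.End F V} (hY : ∀ i, i ≠ j → ∀ X, Commute Y (φ i X)) : Y ∈ Set.range (φ j) := by
  classical
  obtain ⟨b, hb⟩ := exists_tensor_basis φ hcomm hd hirr
  let z : ∀ i, Fin (d i) := fun i => ⟨0, hd i⟩
  let M : Matrix (Fin (d j)) (Fin (d j)) F :=
    fun l l' => b.repr (Y (b (Function.update z j l'))) (Function.update z j l)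
  refine ⟨M, Eq.symm (b.ext fun y => ?_)⟩
  let Q : (∀ i, Fin (d i)) → ∀ i, Matrix (Fin (d i)) (Fin (d i)) F := fun y i =>
    if i = j then 1 else Matrix.single (y i) (z i) 1
  have hQ : ∀ Z : Module.End F V, (∀ i, i ≠ j → ∀ X, Commute Z (φ i X)) → ∀ y, Commute Z (tup φ hcomm (Q y)) :=
    fun Z hZ y => Finset.noncommProd_commute _ _ _ _ fun i _ => by
      by_cases h : i = j
      · show Commute Z (φ i (Q y i)); simp [Q, h]
      · exact hZ i h _
  have hQb : ∀ y, tup φ hcomm (Q y) (b (Function.update z j (y j))) = b y := by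
    intro y
    refine b.repr.injective (Finsupp.ext fun x => ?_)
    rw [hb, b.repr_self]
    by_cases h : y = x
    · subst h
      rw [Finsupp.single_eq_same, Finset.prod_eq_one]
      intro i _
      by_cases hi : i = j
      · subst hi; simp [Q]
      · simp [Q, hi, Function.update_of_ne hi]
    · obtain ⟨i, hi⟩ := Function.ne_iff.mp h
      rw [Finsupp.single_eq_of_ne (Ne.symm h), Finset.prod_eq_zero (mem_univ i)]
      by_cases hij : i = j
      · subst hij; simp [Q, Matrix.one_apply, Ne.symm hi]
      · simp [Q, hij, hi, Function.update_of_ne hij]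
  have hZ : ∀ i, i ≠ j → ∀ X, Commute (φ j M) (φ i X) := fun i hi X => hcomm (Ne.symm hi) M X
  suffices h0 : ∀ l', Y (b (Function.update z j l')) = φ j M (b (Function.update z j l')) by
    rw [← hQb y, ← Module.End.mul_apply, (hQ Y hY y).eq, Module.End.mul_apply, h0, ← Module.End.mul_apply,
      ← (hQ _ hZ y).eq, Module.End.mul_apply]
  intro l'
  refine b.repr.injective (Finsupp.ext fun x => ?_)
  by_cases hx : ∀ i, i ≠ j → x i = z i
  · obtain ⟨l, rfl⟩ : ∃ l, x = Function.update z j l := ⟨x j, funext fun i => by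
      by_cases hi : i = j
      · subst hi; simp
      · simp [Function.update_of_ne hi, hx i hi]⟩
    rw [← tup_mulSingle φ hcomm j M, hb]
    rw [Finset.prod_eq_single j (fun i _ hi => by simp [Pi.mulSingle_eq_of_ne hi, Function.update_of_ne hi])
      (by simp)]
    rw [Function.update_self, Function.update_self, Pi.mulSingle_eq_same]
  · push_neg at hx
    obtain ⟨i, hij, hi⟩ := hx
    have hvan : ∀ Z : Module.End F V, (∀ i, i ≠ j → ∀ X, Commute Z (φ i X)) →
        b.repr (Z (b (Function.update z j l'))) x = 0 := by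
      intro Z hZ'
      have e := hQb (Function.update z j l')
      rw [show Function.update z j (Function.update z j l' j) = Function.update z j l' by simp] at e
      rw [← e, ← Module.End.mul_apply, (hQ Z hZ' _).eq, Module.End.mul_apply,
        ← b.sum_repr (Z (b (Function.update z j l'))), map_sum, map_sum, Finsupp.finset_sum_apply]
      refine Finset.sum_eq_zero fun y _ => ?_
      rw [map_smul, map_smul, Finsupp.smul_apply, hb, Finset.prod_eq_zero (mem_univ i), smul_zero]
      simp [Q, hij, Function.update_of_ne hij, Ne.symm hi]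
    rw [hvan Y hY, hvan _ hZ]

end Cfsg.Agent.GeomClasses.Asch
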