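import Cfsg.Agent.GeomClasses.Aschbacher.Forms

/-! # Normalisers of spanning groups fixing forms -/

set_option autoImplicit false

namespace Cfsg.Agent.GeomClasses.Asch

open Matrix Cfsg.Geo

variable {F : Type*} [Field F] {n : ℕ}

/-- The Gram matrix. -/
def gram (f : (Fin n → F) → (Fin n → F) → F) : Matrix (Fin n) (Fin n) F :=
  Matrix.of fun i j => f (Pi.single i 1) (Pi.single j 1)

theorem eq_matForm {σ : F ≃+* F} {f : (Fin n → F) → (Fin n → F) → F}
    (h1 : ∀ x y v, f (x + y) v = f x v + f y v) (h2 : ∀ (c : F) x v, f (c • x) v = c * f x v)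
    (h3 : ∀ v x y, f v (x + y) = f v x + f v y) (h4 : ∀ (c : F) v x, f v (c • x) = σ c * f v x)
    (u v : Fin n → F) : f u v = matForm σ (gram f) u v := by
  let L : (Fin n → F) → (Fin n → F) →+ F := fun v => AddMonoidHom.mk' (fun x => f x v) fun x y => h1 x y v
  let R : (Fin n → F) → (Fin n → F) →+ F := fun u => AddMonoidHom.mk' (fun x => f u x) fun x y => h3 u x y
  have eu : ∀ w : Fin n → F, w = ∑ i, w i • (Pi.single i (1 : F) : Fin n → F) := fun w => by
    funext k; simp [Finset.sum_apply, Pi.single_apply]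
  calc f u v = L v (∑ i, u i • Pi.single i 1) := by rw [← eu]; rfl
    _ = ∑ i, u i * f (Pi.single i 1) v := by rw [map_sum]; exact Finset.sum_congr rfl fun i _ => h2 _ _ _
    _ = ∑ i, u i * R (Pi.single i 1) (∑ j, v j • Pi.single j 1) := by rw [← eu]; rfl
    _ = _ := by
      simp only [matForm, dotProduct, Matrix.mulVec, map_sum]
      refine Finset.sum_congr rfl fun i _ => congrArg _ (Finset.sum_congr rfl fun j _ => ?_)
      show f (Pi.single i 1) (v j • Pi.single j 1) = gram f i j * σ (v j)
      rw [h4]; exact mul_comm _ _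

theorem isUnit_of_nondeg {σ : F ≃+* F} {B : Matrix (Fin n) (Fin n) F} (h : IsNondegenerateForm (matForm σ B)) :
    IsUnit B.det := by
  refine isUnit_iff_ne_zero.mpr fun h0 => ?_
  obtain ⟨v, hv, hBv⟩ := Matrix.exists_mulVec_eq_zero_iff.mpr h0
  obtain ⟨⟨x, hx⟩, -⟩ := h (fun i => σ.symm (v i)) fun h' => hv (funext fun i => by
    simpa using congrFun h' i)
  exact hx (by simp [matForm, hBv])

theorem fix_gram {σ : F ≃+* F} {B g : Matrix (Fin n) (Fin n) F}
    (h : ∀ u v, matForm σ B (g *ᵥ u) (g *ᵥ v) = matForm σ B u v) : gᵀ * B * g.map σ = B := by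
  ext i j
  rw [← matForm_single σ (gᵀ * B * g.map σ) i j, ← matForm_apply, h, matForm_single]

variable [Fintype F]

/-- A fixed symplectic, unitary, or quadratic form puts the normaliser in the eighth class. -/
theorem good_of_fixed {H X : Subgroup (GL (Fin n) F)} (hn : 3 ≤ n) (hX : Full X)
    (hnorm : ∀ g ∈ H, ∀ x ∈ X, g * x * g⁻¹ ∈ X)
    (h : (∃ Q : (Fin n → F) → F, IsNondegenerateQuadraticForm Q ∧ FixesQuadForm (matrixSet X) Q) ∨
      (∃ f : (Fin n → F) → (Fin n → F) → F, IsSymplecticForm f ∧ FixesForm (matrixSet X) f) ∨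
      (∃ (σ : F ≃+* F) (f : (Fin n → F) → (Fin n → F) → F), IsUnitaryForm σ f ∧ FixesForm (matrixSet X) f)) :
    Good H := by
  have key : ∀ (σ : F ≃+* F) (f : (Fin n → F) → (Fin n → F) → F), (∀ u v, f u v = matForm σ (gram f) u v) →
      IsNondegenerateForm f → FixesForm (matrixSet X) f →
      IsUnit (gram f).det ∧ ∀ g ∈ H, ∃ c : Fˣ, (g : Matrix (Fin n) (Fin n) F)ᵀ * gram f *
        (g : Matrix (Fin n) (Fin n) F).map σ = (c : F) • gram f := by
    intro σ f he hnd hfix
    have hu : IsUnit (gram f).det := isUnit_of_nondeg (σ := σ) (by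
      rwa [show matForm σ (gram f) = f from funext fun u => funext fun v => (he u v).symm])
    refine ⟨hu, fun g hg => sim_of_fix hX hu (fun x hx => fix_gram fun u v => ?_) (hnorm g hg)⟩
    rw [← he, ← he]; exact hfix _ ⟨x, hx, rfl⟩ u v
  rcases h with ⟨Q, hQ, hfix⟩ | ⟨f, hf, hfix⟩ | ⟨σ, f, hf, hfix⟩
  · have hb := hQ.polar_bilinear
    have hfx : FixesForm (matrixSet X) (QuadraticMap.polar Q) := fun s hs u v => by
      simp only [QuadraticMap.polar, ← Matrix.mulVec_add, hfix s hs]
    obtain ⟨hu, hsim⟩ := key (RingEquiv.refl F) _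
      (eq_matForm hb.add_left hb.smul_left hb.add_right hb.smul_right) hQ.nondegenerate hfx
    have hsymm : (gram (QuadraticMap.polar Q))ᵀ = gram (QuadraticMap.polar Q) := by
      ext i j; exact QuadraticMap.polar_comm Q _ _
    by_cases h2 : (2 : F) = 0
    · refine good_of_alt hn hu (by
        rw [hsymm]; ext i j
        rw [Matrix.neg_apply]
        linear_combination (gram (QuadraticMap.polar Q) i j) * h2) (fun i => ?_) hsim
      show QuadraticMap.polar Q (Pi.single i 1) (Pi.single i 1) = 0
      have h00 : Q 0 = 0 := by simpa using hQ.smul 0 0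
      have hvv : (Pi.single i (1 : F) : Fin n → F) + Pi.single i 1 = 0 := by
        rw [← two_smul F, h2, zero_smul]
      rw [QuadraticMap.polar, hvv, h00]
      linear_combination (-(Q (Pi.single i 1))) * h2
    · exact good_of_symm hn h2 hu hsymm hsim
  · have hb := hf.bilinear
    obtain ⟨hu, hsim⟩ := key (RingEquiv.refl F) f
      (eq_matForm hb.add_left hb.smul_left hb.add_right hb.smul_right) hf.nondegenerate hfix
    exact good_of_alt hn hu (by ext i j; exact hf.skew _ _) (fun i => hf.alternating _) hsim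
  · have h3 : ∀ v x y, f v (x + y) = f v x + f v y := fun v x y => by
      rw [hf.herm, hf.add_left, map_add, ← hf.herm, ← hf.herm]
    have h4 : ∀ (c : F) v x, f v (c • x) = σ c * f v x := fun c v x => by
      rw [hf.herm, hf.smul_left, map_mul, ← hf.herm]
    obtain ⟨hu, hsim⟩ := key σ f (eq_matForm hf.add_left hf.smul_left h3 h4) hf.nondegenerate hfix
    exact good_of_herm hn hf.ne_refl hf.involutive hu (by ext i j; exact (hf.herm _ _).symm) hsim

end Cfsg.Agent.GeomClasses.Asch
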