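import Cfsg.Agent.GeomClasses.Aschbacher.Centre

/-! # Idempotents of commutative algebras normalised by an irreducible set -/

set_option autoImplicit false

namespace Cfsg.Agent.GeomClasses.Asch

open Module Finset

variable {F : Type*} [Field F] {V : Type*} [AddCommGroup V] [Module F V] [FiniteDimensional F V]
  {E : Subalgebra F (Module.End F V)} {S : Set (Module.End F V)ˣ}
  (hcomm : ∀ x ∈ E, ∀ y ∈ E, x * y = y * x) (hS : ∀ g ∈ S, Normalises E g)
  (hirr : Irr ((fun g : (Module.End F V)ˣ => (g : Module.End F V)) '' S))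

include hcomm hS hirr in
/-- Either a permuted direct sum decomposition or a field. -/
theorem idem_or_field [Finite F] [Nontrivial V] :
    (∃ (P : Finset (Module.End F V)) (m : ℕ), 2 ≤ P.card ∧ 0 < m ∧ (∀ e ∈ P, e ∈ E ∧ e * e = e ∧ e ≠ 0 ∧
      ∀ f ∈ E, f * f = f → e * f = 0 ∨ e * f = e) ∧ (∀ e ∈ P, ∀ f ∈ P, e ≠ f → e * f = 0) ∧
      (∑ e ∈ P, e = 1) ∧ (∀ e ∈ P, finrank F (LinearMap.range e) = m) ∧
      (∀ e ∈ E, e * e = e → e ≠ 0 → (∀ f ∈ E, f * f = f → e * f = 0 ∨ e * f = e) → e ∈ P) ∧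
      ∀ g, Normalises E g → ∀ e ∈ P, (g : Module.End F V) * e * (g⁻¹ : (Module.End F V)ˣ).val ∈ P) ∨
    ∀ x ∈ E, x ≠ 0 → ∃ y ∈ E, x * y = 1 := by
  classical
  haveI : Finite V := Module.finite_of_finite F
  haveI : Finite (Module.End F V) := Finite.of_injective _ DFunLike.coe_injective
  haveI := Fintype.ofFinite (Module.End F V)
  by_cases hidem : ∃ x ∈ E, x * x = x ∧ x ≠ 0 ∧ x ≠ 1
  swap
  · push_neg at hidem
    refine Or.inr fun x hx hx0 => ?_
    obtain ⟨a, b, hab, hpow⟩ : ∃ a b, a < b ∧ x ^ (a + 1) = x ^ (b + 1) := by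
      obtain ⟨a, b, hne, h⟩ := Finite.exists_ne_map_eq_of_infinite fun k : ℕ => x ^ (k + 1)
      rcases lt_or_gt_of_ne hne with h' | h'
      · exact ⟨a, b, h', h⟩
      · exact ⟨b, a, h', h.symm⟩
    obtain ⟨d, rfl⟩ : ∃ d, b = a + 1 + d := ⟨b - a - 1, by omega⟩
    have hper : ∀ k, x ^ (a + 1 + k * (d + 1)) = x ^ (a + 1) := by
      intro k
      induction k with
      | zero => simp
      | succ k ih =>
        rw [show a + 1 + (k + 1) * (d + 1) = (d + 1) + (a + 1 + k * (d + 1)) by ring, pow_add, ih, ← pow_add,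
          show d + 1 + (a + 1) = a + 1 + d + 1 by ring, ← hpow]
    set m := (a + 1) * (d + 1) with hm
    obtain ⟨j, hj⟩ : ∃ j, m = a + 1 + j := ⟨(a + 1) * d, by rw [hm]; ring⟩
    have hid : x ^ m * x ^ m = x ^ m := by
      have e := hper (a + 1)
      rw [← hm] at e
      rw [← pow_add, show m + m = (a + 1 + m) + j by omega, pow_add, e, ← pow_add, ← hj]
    have hne : x ^ m ≠ 0 := fun h => hx0 (eq_zero_of_nilpotent hcomm hS hirr hx ⟨m, h⟩)
    have h1 := hidem _ (pow_mem hx m) hid hne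
    refine ⟨x ^ (m - 1), pow_mem hx _, ?_⟩
    rw [← pow_succ', show m - 1 + 1 = m by omega, h1]
  left
  let P : Finset (Module.End F V) := univ.filter fun e =>
    e ∈ E ∧ e * e = e ∧ e ≠ 0 ∧ ∀ f ∈ E, f * f = f → e * f = 0 ∨ e * f = e
  have hP : ∀ {e}, e ∈ P ↔ e ∈ E ∧ e * e = e ∧ e ≠ 0 ∧ ∀ f ∈ E, f * f = f → e * f = 0 ∨ e * f = e := by simp [P]
  have hmul : ∀ x ∈ E, ∀ y ∈ E, x * x = x → y * y = y → (x * y) * (x * y) = x * y := by
    intro x hx y hy h1 h2
    rw [mul_assoc, ← mul_assoc y, hcomm y hy x hx, mul_assoc x y y, h2, ← mul_assoc, h1]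
  have horth : ∀ e ∈ P, ∀ f ∈ P, e ≠ f → e * f = 0 := by
    intro e he f hf hne
    rw [hP] at he hf
    rcases he.2.2.2 f hf.1 hf.2.1 with h | h
    · exact h
    rcases hf.2.2.2 e he.1 he.2.1 with h' | h'
    · rwa [hcomm e he.1 f hf.1]
    · exact absurd (by rw [← h, hcomm e he.1 f hf.1, h']) hne
  have hbelow : ∀ k, ∀ x ∈ E, x * x = x → x ≠ 0 → finrank F (LinearMap.range x) ≤ k →
      ∃ e ∈ P, e * x = e := by
    intro k
    induction k with
    | zero =>
      intro x _ _ hx0 hk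
      exact absurd (LinearMap.range_eq_bot.mp (Submodule.finrank_eq_zero.mp (Nat.le_zero.mp hk))) hx0
    | succ k ih =>
      intro x hx hxx hx0 hk
      by_cases hmin : ∀ f ∈ E, f * f = f → x * f = 0 ∨ x * f = x
      · exact ⟨x, hP.mpr ⟨hx, hxx, hx0, hmin⟩, hxx⟩
      push_neg at hmin
      obtain ⟨f, hf, hff, h0, h1⟩ := hmin
      have hle : LinearMap.range (x * f) ≤ LinearMap.range x := LinearMap.range_comp_le_range f x
      have hlt : LinearMap.range (x * f) < LinearMap.range x := by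
        refine lt_of_le_of_ne hle fun h => h1 (LinearMap.ext fun v => ?_)
        obtain ⟨w, hw⟩ : x v ∈ LinearMap.range (x * f) := h ▸ ⟨v, rfl⟩
        calc (x * f) v = (x * f) (x v) := by rw [← Module.End.mul_apply (x * f), mul_assoc, hcomm f hf x hx,
                ← mul_assoc, hxx]
          _ = (x * f) ((x * f) w) := by rw [hw]
          _ = (x * f) w := by rw [← Module.End.mul_apply, hmul x hx f hf hxx hff]
          _ = x v := hw
      obtain ⟨e, he, hex⟩ := ih (x * f) (mul_mem hx hf) (hmul x hx f hf hxx hff) h0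
        (by have := Submodule.finrank_lt_finrank_of_lt hlt; omega)
      exact ⟨e, he, by rw [← hex, mul_assoc, mul_assoc, hcomm f hf x hx, ← mul_assoc x x f, hxx]⟩
  have hPE : ∀ e ∈ P, e ∈ E := fun e he => (hP.mp he).1
  have hsumP : ∀ O ⊆ P, ∀ e ∈ P, e * ∑ f ∈ O, f = if e ∈ O then e else 0 := by
    intro O hO e he
    rw [Finset.mul_sum]
    by_cases h : e ∈ O
    · rw [if_pos h, Finset.sum_eq_single_of_mem e h fun f hf hne => horth e he f (hO hf) (Ne.symm hne), (hP.mp he).2.1]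
    · rw [if_neg h]
      exact Finset.sum_eq_zero fun f hf => horth e he f (hO hf) fun e' => h (e' ▸ hf)
  have hidO : ∀ O ⊆ P, (∑ f ∈ O, f) * (∑ f ∈ O, f) = ∑ f ∈ O, f := by
    intro O hO
    rw [Finset.sum_mul]
    exact Finset.sum_congr rfl fun e he => by rw [hsumP O hO e (hO he), if_pos he]
  have hone : ∑ e ∈ P, e = 1 := by
    by_contra h
    have hx : 1 - ∑ e ∈ P, e ∈ E := sub_mem (one_mem _) (sum_mem hPE)
    obtain ⟨e, he, hex⟩ := hbelow _ _ hx
      (by rw [mul_sub, sub_mul, sub_mul, hidO P subset_rfl]; simp) (sub_ne_zero.mpr (Ne.symm h)) le_rfl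
    rw [mul_sub, mul_one, hsumP P subset_rfl e he, if_pos he, sub_self] at hex
    exact (hP.mp he).2.2.1 hex.symm
  have hconjP : ∀ g, Normalises E g → ∀ e ∈ P, (g : Module.End F V) * e * (g⁻¹ : (Module.End F V)ˣ).val ∈ P := by
    intro g hg e he
    rw [hP] at he ⊢
    refine ⟨(hg e).mp he.1, ?_, fun h => he.2.2.1 ?_, fun f hf hff => ?_⟩
    · simp only [mul_assoc, Units.inv_mul_cancel_left]; rw [← mul_assoc e e, he.2.1]
    · have := congrArg (fun z => (g⁻¹ : (Module.End F V)ˣ).val * z * (g : Module.End F V)) h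
      simpa [mul_assoc] using this
    · have hf' : (g⁻¹ : (Module.End F V)ˣ).val * f * (g : Module.End F V) ∈ E := by simpa using (hg.inv f).mp hf
      have e' : (g : Module.End F V) * e * (g⁻¹ : (Module.End F V)ˣ).val * f = (g : Module.End F V) *
          (e * ((g⁻¹ : (Module.End F V)ˣ).val * f * (g : Module.End F V))) * (g⁻¹ : (Module.End F V)ˣ).val := by
        simp [mul_assoc]
      rw [e']
      rcases he.2.2.2 _ hf' (by simp only [mul_assoc, Units.mul_inv_cancel_left]; rw [← mul_assoc f f, hff]) with h | h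
      · left; rw [h, mul_zero, zero_mul]
      · right; rw [h]
  obtain ⟨x0, hx0E, hx00, hx0ne, hx0one⟩ := hidem
  obtain ⟨e0, he0, -⟩ := hbelow _ x0 hx0E hx00 hx0ne le_rfl
  let D0 := finrank F (LinearMap.range e0)
  let O := P.filter fun e => finrank F (LinearMap.range e) = D0
  have hrange : ∀ (g : (Module.End F V)ˣ) (e : Module.End F V), LinearMap.range ((g : Module.End F V) * e *
      (g⁻¹ : (Module.End F V)ˣ).val) = (LinearMap.range e).map (g : Module.End F V) := by
    intro g e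
    apply le_antisymm
    · rintro _ ⟨v, rfl⟩; exact ⟨_, ⟨(g⁻¹ : (Module.End F V)ˣ).val v, rfl⟩, rfl⟩
    · rintro _ ⟨_, ⟨v, rfl⟩, rfl⟩
      refine ⟨(g : Module.End F V) v, ?_⟩
      simp only [Module.End.mul_apply]
      rw [← Module.End.mul_apply (g⁻¹ : (Module.End F V)ˣ).val, Units.inv_mul, Module.End.one_apply]
  have hinj : ∀ g : (Module.End F V)ˣ, Function.Injective (g : Module.End F V) := fun g a b h => by
    have := congrArg (g⁻¹ : (Module.End F V)ˣ).val h
    rwa [← Module.End.mul_apply, ← Module.End.mul_apply, Units.inv_mul] at this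
  have hOconj : ∀ g, Normalises E g → ∀ e ∈ O,
      (g : Module.End F V) * e * (g⁻¹ : (Module.End F V)ˣ).val ∈ O := by
    intro g hg e he
    simp only [O, mem_filter] at he ⊢
    refine ⟨hconjP g hg e he.1, ?_⟩
    rw [hrange, ← he.2]
    exact ((Submodule.equivMapOfInjective _ (hinj g) _).finrank_eq).symm
  have hOP : O ⊆ P := Finset.filter_subset _ _
  have hfixO : ∀ e ∈ O, ∀ v, e v ∈ LinearMap.range (∑ f ∈ O, f) := fun e he v => by
    refine ⟨e v, ?_⟩
    rw [← Module.End.mul_apply, hcomm _ (sum_mem fun f hf => hPE f (hOP hf)) e (hPE e (hOP he)),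
      hsumP O hOP e (hOP he), if_pos he]
  have htop : LinearMap.range (∑ f ∈ O, f) = ⊤ := by
    refine (hirr _ ?_).resolve_left fun h => (hP.mp he0).2.2.1 (LinearMap.ext fun v => ?_)
    · rintro _ ⟨g, hg, rfl⟩ w ⟨v, rfl⟩
      have e : (g : Module.End F V) * (∑ f ∈ O, f) =
          (∑ f ∈ O, (g : Module.End F V) * f * (g⁻¹ : (Module.End F V)ˣ).val) * (g : Module.End F V) := by
        rw [Finset.sum_mul, Finset.mul_sum]
        exact Finset.sum_congr rfl fun f _ => by simp [mul_assoc]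
      show (g : Module.End F V) ((∑ f ∈ O, f) v) ∈ _
      rw [← Module.End.mul_apply, e, Module.End.mul_apply, LinearMap.sum_apply]
      exact Submodule.sum_mem _ fun f hf => hfixO _ (hOconj g (hS g hg) f hf) _
    · have := hfixO e0 (by simp [O, D0, he0]) v
      rw [h, Submodule.mem_bot] at this
      exact this
  have hallO : ∀ e ∈ P, e ∈ O := by
    intro e he
    by_contra hne
    apply (hP.mp he).2.2.1
    refine LinearMap.ext fun v => ?_
    obtain ⟨w, hw⟩ : v ∈ LinearMap.range (∑ f ∈ O, f) := htop ▸ trivial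
    rw [← hw, ← Module.End.mul_apply, hsumP O hOP e he, if_neg hne]
    simp
  have hpos : 0 < D0 := Nat.pos_of_ne_zero fun h =>
    (hP.mp he0).2.2.1 (LinearMap.range_eq_bot.mp (Submodule.finrank_eq_zero.mp h))
  refine ⟨P, D0, ?_, hpos, fun e he => hP.mp he, horth, hone, fun e he => (mem_filter.mp (hallO e he)).2,
    fun e h1 h2 h3 h4 => hP.mpr ⟨h1, h2, h3, h4⟩, hconjP⟩
  by_contra hlt
  push_neg at hlt
  have h1 : P = {e0} :=
    (Finset.eq_of_subset_of_card_le (Finset.singleton_subset_iff.mpr he0) (by simp; omega)).symm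
  rw [h1, Finset.sum_singleton] at hone
  rcases (hP.mp he0).2.2.2 x0 hx0E hx00 with h | h
  · rw [hone, one_mul] at h; exact hx0ne h
  · rw [hone, one_mul] at h; exact hx0one h

omit hcomm hS hirr in
/-- An idempotent commuting with an irreducible set is trivial. -/
theorem idem_trivial (hirr : Irr ((fun g : (Module.End F V)ˣ => (g : Module.End F V)) '' S))
    {s : Module.End F V} (hss : s * s = s) (hs : ∀ g ∈ S, Commute (g : Module.End F V) s) : s = 0 ∨ s = 1 := by
  rcases hirr (LinearMap.range s) (by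
    rintro _ ⟨g, hg, rfl⟩ w ⟨v, rfl⟩
    exact ⟨(g : Module.End F V) v, by rw [← Module.End.mul_apply, ← (hs g hg).eq]; rfl⟩) with h | h
  · exact Or.inl (LinearMap.range_eq_bot.mp h)
  · refine Or.inr (LinearMap.ext fun v => ?_)
    obtain ⟨w, hw⟩ : v ∈ LinearMap.range s := h ▸ trivial
    rw [← hw, ← Module.End.mul_apply, hss]; rfl

end Cfsg.Agent.GeomClasses.Asch
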