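import Cfsg.Agent.GeomClasses.Aschbacher.AbelianCase

/-! # The structure theorem for the linear groups -/

set_option autoImplicit false
set_option maxHeartbeats 400000

namespace Cfsg.Agent.GeomClasses.Asch

open Matrix Cfsg.Geo

/-- Every subgroup lies in a geometric class or is in the residual class. -/
theorem structure_theorem {F : Type*} [Field F] [Fintype F] (n : ℕ) (hn : 3 ≤ n) (H : Subgroup (GL (Fin n) F)) :
    (∃ M : Subgroup (GL (Fin n) F), InLinearClass n F M ∧ H ≤ M) ∨ InLinearResidualClass H := by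
  classical
  haveI : Nonempty (Fin n) := ⟨⟨0, by omega⟩⟩
  haveI : Nontrivial (Fin n → F) := Function.nontrivial
  set Z := scalars (Fin n) F
  set K := H ⊔ Z with hK
  by_cases hgood : Good K
  · exact Or.inl (hgood.mono le_sup_left)
  have hirr := (irr_or_good (by omega) K).resolve_left hgood
  have hKnZ : ¬ K ≤ Z := by
    intro hle
    let W : Submodule F (Fin n → F) := Submodule.span F {Pi.single ⟨0, by omega⟩ 1}
    have hfr : Module.finrank F W = 1 := finrank_span_singleton (by
      intro h0
      have := congrFun h0 ⟨0, by omega⟩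
      simp at this)
    rcases hirr W (by
      rintro _ ⟨_, ⟨g, hg, rfl⟩, rfl⟩ w hw
      obtain ⟨c, hc⟩ := (mem_scalars_iff g).mp (hle hg)
      show (gu g : Module.End F (Fin n → F)) w ∈ W
      rw [gu_apply, hc, Matrix.smul_mulVec, Matrix.one_mulVec]
      exact W.smul_mem _ hw) with h | h
    · rw [h, finrank_bot] at hfr; omega
    · rw [h, finrank_top, Module.finrank_fin_fun] at hfr; omega
  have hfull : ∀ N, NormalisedBy K N → ¬ N ≤ Z → Full N := fun N hN hNZ =>
    (normal_or_good hn hirr hN hNZ).resolve_left hgood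
  obtain ⟨M, ⟨hMn, hZM, hMK, hMne⟩, hmin⟩ := exists_minimal_of_wellFoundedLT
    (fun M : Subgroup (GL (Fin n) F) => NormalisedBy K M ∧ Z ≤ M ∧ M ≤ K ∧ M ≠ Z)
    ⟨K, fun g hg x hx => mul_mem (mul_mem hg hx) (inv_mem hg), le_sup_right, le_rfl, fun h => hKnZ h.le⟩
  have hmin' : ∀ N, NormalisedBy K N → Z ≤ N → N ≤ M → N = Z ∨ N = M := fun N h1 h2 h3 => by
    by_cases h : N = Z
    · exact Or.inl h
    · exact Or.inr (le_antisymm h3 (hmin ⟨h1, h2, h3.trans hMK, h⟩ h3))
  by_cases hab : ⁅M, M⁆ ≤ Z
  · exact absurd (abelian_case hn hMn hZM hMne hmin' hfull hab) hgood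
  · exact nonabelian_case hn le_sup_left ((commutator_sup_scalars H H).trans (Subgroup.commutator_le_self H))
      hMK hMn hmin' hfull hab hZM

end Cfsg.Agent.GeomClasses.Asch
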