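import Cfsg.Agent.GeomClasses.Aschbacher.SympCount

/-! # Monomial realisation of the symplectic-type group -/

set_option autoImplicit false
set_option maxHeartbeats 400000

namespace Cfsg.Agent.GeomClasses.Asch

open Matrix Cfsg.Geo Polynomial
open scoped commutatorElement

variable {F : Type*} [Field F] [Fintype F] {n : ℕ} {r : ℕ} {K R : Subgroup (GL (Fin n) F)}

/-- A common eigenvector of commuting operators whose `q`-th powers are themselves. -/
theorem exists_common_eigen [Nontrivial (Fin n → F)] (s : Finset (GL (Fin n) F))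
    (hc : ∀ a ∈ s, ∀ b ∈ s, a * b = b * a) (hp : ∀ a ∈ s, a ^ Fintype.card F = a) :
    ∃ v : Fin n → F, v ≠ 0 ∧ ∀ a ∈ s, ∃ c : F, (a : Matrix (Fin n) (Fin n) F) *ᵥ v = c • v := by
  classical
  suffices H : ∀ t ⊆ s, ∃ W : Submodule F (Fin n → F), W ≠ ⊥ ∧
      (∀ a ∈ t, ∃ c : F, ∀ w ∈ W, (a : Matrix (Fin n) (Fin n) F) *ᵥ w = c • w) ∧
      ∀ b ∈ s, ∀ w ∈ W, (b : Matrix (Fin n) (Fin n) F) *ᵥ w ∈ W by
    obtain ⟨W, hW, h1, -⟩ := H s subset_rfl
    obtain ⟨v, hv, hv0⟩ := (Submodule.ne_bot_iff W).mp hW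
    exact ⟨v, hv0, fun a ha => (h1 a ha).imp fun c hc => hc v hv⟩
  intro t
  induction t using Finset.induction_on with
  | empty => intro _; exact ⟨⊤, top_ne_bot, by simp, by simp⟩
  | insert a t hat ih =>
    intro hts
    rw [Finset.insert_subset_iff] at hts
    obtain ⟨W, hW, h1, h2⟩ := ih hts.2
    set T : Module.End F (Fin n → F) := Matrix.toLinAlgEquiv' (a : Matrix (Fin n) (Fin n) F)
    have hT : ∀ w, T w = (a : Matrix (Fin n) (Fin n) F) *ᵥ w := fun w => Matrix.toLinAlgEquiv'_apply _ _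
    obtain ⟨c, hcW⟩ : ∃ c : F, W ⊓ LinearMap.ker (T - algebraMap F _ c) ≠ ⊥ := by
      by_contra hh
      push_neg at hh
      have hinj : ∀ s : Finset F, ∀ w ∈ W, aeval T (∏ c ∈ s, (X - C c)) w = 0 → w = 0 := by
        intro s
        induction s using Finset.induction_on with
        | empty => intro w _ h; simpa using h
        | insert c u hcu ih2 =>
          intro w hw h
          rw [Finset.prod_insert hcu, mul_comm, map_mul, Module.End.mul_apply, map_sub, aeval_X, aeval_C] at h
          have hw' : (T - algebraMap F _ c) w ∈ W := by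
            rw [LinearMap.sub_apply, Module.algebraMap_end_apply, hT]
            exact sub_mem (h2 a hts.1 w hw) (W.smul_mem c hw)
          exact (Submodule.mem_bot F).mp (hh c ▸ ⟨hw, LinearMap.mem_ker.mpr (ih2 _ hw' h)⟩)
      obtain ⟨w, hw, hw0⟩ := (Submodule.ne_bot_iff W).mp hW
      refine hw0 (hinj Finset.univ w hw ?_)
      have hq := Fintype.one_lt_card (α := F)
      have he : ∏ c : F, (X - C c) = X ^ Fintype.card F - X := by
        have hm : (X ^ Fintype.card F - X : F[X]).Monic := monic_X_pow_sub (by rw [degree_X]; exact_mod_cast hq)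
        have hr := FiniteField.roots_X_pow_card_sub_X F
        have := prod_multiset_X_sub_C_of_monic_of_roots_card_eq hm (by
          rw [hr, FiniteField.X_pow_card_sub_X_natDegree_eq F hq]; rfl)
        rwa [hr] at this
      rw [he, map_sub, map_pow, aeval_X, ← map_pow, ← Units.val_pow_eq_pow_val, hp a hts.1, sub_self]
      rfl
    refine ⟨W ⊓ LinearMap.ker (T - algebraMap F _ c), hcW, fun b hb => ?_, fun b hb w hw => ?_⟩
    · rcases Finset.mem_insert.mp hb with rfl | hb
      · refine ⟨c, fun w hw => ?_⟩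
        have := LinearMap.mem_ker.mp hw.2
        rwa [LinearMap.sub_apply, Module.algebraMap_end_apply, hT, sub_eq_zero] at this
      · exact (h1 b hb).imp fun d hd w hw => hd w hw.1
    · refine ⟨h2 b hb w hw.1, ?_⟩
      have := LinearMap.mem_ker.mp hw.2
      rw [LinearMap.sub_apply, Module.algebraMap_end_apply, hT, sub_eq_zero] at this
      rw [SetLike.mem_coe, LinearMap.mem_ker, LinearMap.sub_apply, Module.algebraMap_end_apply, hT, sub_eq_zero,
        Matrix.mulVec_mulVec, ← Units.val_mul, hc a hts.1 b hb, Units.val_mul, ← Matrix.mulVec_mulVec, this,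
        Matrix.mulVec_smul]

/-- In a suitable frame the group is monomial with roots of unity as entries. -/
theorem STData.monomial (h : STData K r R) (hn : 3 ≤ n) (hz : r * Nat.gcd 2 r ∣ Fintype.card F - 1) :
    ∃ P : GL (Fin n) F, ∀ x ∈ R, ∃ (π : Fin n → Fin n) (χ : Fin n → F), Function.Injective π ∧
      (∀ j, χ j ^ (r * Nat.gcd 2 r) = 1) ∧
      ∀ i j, ((P⁻¹ * x * P : GL (Fin n) F) : Matrix (Fin n) (Fin n) F) i j = if i = π j then χ j else 0 := by
  classical
  haveI : Nonempty (Fin n) := ⟨⟨0, by omega⟩⟩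
  obtain ⟨A, ⟨hAR, hAc⟩, hAmax⟩ := exists_maximal_of_wellFoundedGT
    (fun A : Subgroup (GL (Fin n) F) => A ≤ R ∧ ∀ a ∈ A, ∀ b ∈ A, a * b = b * a) ⟨⊥, bot_le, by simp⟩
  have hAmem : ∀ x ∈ R, (∀ a ∈ A, x * a = a * x) → x ∈ A := by
    intro x hx hxa
    have hle : A ≤ Subgroup.closure ((A : Set (GL (Fin n) F)) ∪ {x}) :=
      fun a ha => Subgroup.subset_closure (Or.inl ha)
    refine hAmax ⟨?_, ?_⟩ hle (Subgroup.subset_closure (Or.inr rfl))
    · exact (Subgroup.closure_le R).mpr (Set.union_subset hAR (Set.singleton_subset_iff.mpr hx))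
    · have h1 : Subgroup.closure ((A : Set (GL (Fin n) F)) ∪ {x}) ≤
          Subgroup.centralizer (Subgroup.closure ((A : Set (GL (Fin n) F)) ∪ {x})) := by
        rw [Subgroup.centralizer_closure, Subgroup.closure_le]
        intro y hy
        refine Subgroup.mem_centralizer_iff.mpr fun z hz => ?_
        rcases hy with hy | rfl <;> rcases hz with hz | rfl
        · exact hAc z hz y hy
        · exact hxa y hy
        · exact (hxa z hz).symm
        · rfl
      exact fun a ha b hb => Subgroup.mem_centralizer_iff.mp (h1 hb) a ha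
  obtain ⟨e', he'⟩ := hz
  have hq := Fintype.one_lt_card (α := F)
  obtain ⟨v, hv0, hv⟩ := exists_common_eigen (Finset.univ.filter (· ∈ A))
    (fun a ha b hb => hAc a (Finset.mem_filter.mp ha).2 b (Finset.mem_filter.mp hb).2)
    (fun a ha => by
      have hb : a ^ (Fintype.card F - 1) = 1 := by
        rw [he', pow_mul, h.pow a (hAR (Finset.mem_filter.mp ha).2), one_pow]
      rw [show Fintype.card F = Fintype.card F - 1 + 1 by omega, pow_succ, hb, one_mul])
  choose χ hχ using fun a : A => hv (a : GL (Fin n) F) (by simp)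
  have hχz : ∀ a, χ a ^ (r * Nat.gcd 2 r) = 1 := by
    intro a
    have hpow : ∀ k : ℕ, ((a : GL (Fin n) F) ^ k : GL (Fin n) F).val *ᵥ v = χ a ^ k • v := by
      intro k
      induction k with
      | zero => simp
      | succ k ih =>
        rw [pow_succ, Units.val_mul, ← Matrix.mulVec_mulVec, hχ, Matrix.mulVec_smul, ih, smul_smul, ← pow_succ']
    have := hpow (r * Nat.gcd 2 r)
    rw [h.pow a (hAR a.2), Units.val_one, Matrix.one_mulVec] at this
    have h1 : ((1 : F) - χ a ^ (r * Nat.gcd 2 r)) • v = 0 := by rw [sub_smul, one_smul, ← this, sub_self]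
    exact (sub_eq_zero.mp ((smul_eq_zero.mp h1).resolve_right hv0)).symm
  choose c hc using fun (a b : R) => exists_twist (h.twist a a.2 b b.2)
  let Q := R ⧸ A.subgroupOf R
  haveI : Fintype Q := Fintype.ofFinite _
  let w : Q → (Fin n → F) := fun q => ((q.out : R) : GL (Fin n) F).val *ᵥ v
  let aR : A → R := fun a => ⟨a, hAR a.2⟩
  have hχ0 : ∀ a, χ a ≠ 0 := fun a h0 => by
    have := hχz a
    rw [h0, zero_pow (Nat.mul_ne_zero h.prime.ne_zero (Nat.gcd_pos_of_pos_left r two_pos).ne')] at this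
    exact zero_ne_one this
  have hLw : ∀ q a, Matrix.toLin' ((a : A) : GL (Fin n) F).val (w q) = ((c (aR a) q.out : F) * χ a) • w q := by
    intro q a
    show _ = _
    simp only [w, Matrix.toLin'_apply, Matrix.mulVec_mulVec]
    rw [← Units.val_mul, show ((a : A) : GL (Fin n) F) * ((q.out : R) : GL (Fin n) F) = _ from hc (aR a) q.out,
      sc_mul_val, Units.val_mul, Matrix.smul_mulVec, ← Matrix.mulVec_mulVec,
      show ((aR a : R) : GL (Fin n) F).val *ᵥ v = χ a • v from hχ a, Matrix.mulVec_smul, smul_smul]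
  have hinj : Function.Injective fun (q : Q) (a : A) => (c (aR a) q.out : F) * χ a := by
    intro q q' hqq
    rw [← QuotientGroup.out_eq' q, ← QuotientGroup.out_eq' q', QuotientGroup.eq, Subgroup.mem_subgroupOf]
    refine hAmem _ ((q.out)⁻¹ * q'.out : R).2 fun a ha => ?_
    have h1 := hc (aR ⟨a, ha⟩) q.out
    have h2 := hc (aR ⟨a, ha⟩) q'.out
    rw [show c (aR ⟨a, ha⟩) q'.out = c (aR ⟨a, ha⟩) q.out from
      Units.ext (mul_right_cancel₀ (hχ0 ⟨a, ha⟩) (congrFun hqq ⟨a, ha⟩).symm)] at h2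
    set s : GL (Fin n) F := ((q.out : R) : GL (Fin n) F)
    set t : GL (Fin n) F := ((q'.out : R) : GL (Fin n) F)
    set u := c (aR ⟨a, ha⟩) q.out
    show s⁻¹ * t * a = a * (s⁻¹ * t)
    have h1' : a * s = sc u * (s * a) := h1
    have h2' : a * t = sc u * (t * a) := h2
    calc s⁻¹ * t * a = s⁻¹ * (sc u)⁻¹ * (sc u * (t * a)) := by group
      _ = s⁻¹ * (sc u)⁻¹ * (a * t) := by rw [h2']
      _ = s⁻¹ * (sc u)⁻¹ * (a * s) * (s⁻¹ * t) := by group
      _ = s⁻¹ * (sc u)⁻¹ * (sc u * (s * a)) * (s⁻¹ * t) := by rw [h1']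
      _ = _ := by group
  have hli := li_of_chars (fun a : A => Matrix.toLin' ((a : A) : GL (Fin n) F).val) w _ hLw
    (fun q => fun h0 => hv0 (by
      have := congrArg (((q.out : R) : GL (Fin n) F)⁻¹.val *ᵥ ·) h0
      simpa [w, Matrix.mulVec_mulVec] using this)) hinj
  have hact : ∀ x ∈ R, ∀ q : Q, ∃ (q' : Q) (a : A), x * ((q.out : R) : GL (Fin n) F) =
      ((q'.out : R) : GL (Fin n) F) * a := by
    intro x hx q
    set b : R := ⟨x, hx⟩ * q.out
    let q' : Q := QuotientGroup.mk b
    have hm : q'.out⁻¹ * b ∈ A.subgroupOf R := QuotientGroup.eq.mp (QuotientGroup.out_eq' q')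
    refine ⟨q', ⟨_, Subgroup.mem_subgroupOf.mp hm⟩, ?_⟩
    show (b : GL (Fin n) F) = _ * (((q'.out : R) : GL (Fin n) F)⁻¹ * (b : GL (Fin n) F))
    group
  choose q' a ha using hact
  have hxw : ∀ x (hx : x ∈ R) q, (x : Matrix (Fin n) (Fin n) F) *ᵥ w q = χ (a x hx q) • w (q' x hx q) := by
    intro x hx q
    show (x : Matrix (Fin n) (Fin n) F) *ᵥ (((q.out : R) : GL (Fin n) F).val *ᵥ v) = _
    rw [Matrix.mulVec_mulVec, ← Units.val_mul, ha x hx q, Units.val_mul, ← Matrix.mulVec_mulVec, hχ,
      Matrix.mulVec_smul]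
  have hsp : Submodule.span F (Set.range w) = ⊤ := by
    refine (h.full.absIrred.1 _ ?_).resolve_left fun h0 => ?_
    · rintro _ ⟨x, hx, rfl⟩
      rw [Submodule.map_span_le]
      rintro _ ⟨q, rfl⟩
      rw [Matrix.toLin'_apply, hxw x hx q]
      exact Submodule.smul_mem _ _ (Submodule.subset_span ⟨_, rfl⟩)
    · refine hli.ne_zero (QuotientGroup.mk (1 : R)) ?_
      exact (Submodule.mem_bot F).mp (h0 ▸ Submodule.subset_span (Set.mem_range_self _))
  let b := Module.Basis.mk hli hsp.ge
  let e : Q ≃ Fin n := Fintype.equivFinOfCardEq (by rw [← Module.finrank_eq_card_basis b, Module.finrank_fin_fun])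
  let b' : Module.Basis (Fin n) F (Fin n → F) := b.reindex e
  refine ⟨frameGL b' (Equiv.refl _), fun x hx => ⟨fun j => e (q' x hx (e.symm j)), fun j => χ (a x hx (e.symm j)),
    ?_, fun j => hχz _, fun i j => ?_⟩⟩
  · intro j j' hjj
    have h1 : q' x hx (e.symm j) = q' x hx (e.symm j') := e.injective hjj
    have e1 := ha x hx (e.symm j)
    have e2 := ha x hx (e.symm j')
    rw [h1] at e1
    apply e.symm.injective
    rw [← QuotientGroup.out_eq' (e.symm j), ← QuotientGroup.out_eq' (e.symm j'), QuotientGroup.eq,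
      Subgroup.mem_subgroupOf]
    show (((e.symm j).out : R) : GL (Fin n) F)⁻¹ * (((e.symm j').out : R) : GL (Fin n) F) ∈ A
    generalize (((e.symm j).out : R) : GL (Fin n) F) = s at e1
    generalize (((e.symm j').out : R) : GL (Fin n) F) = t at e2
    generalize ((((q' x hx (e.symm j')).out : R)) : GL (Fin n) F) = u at e1 e2
    rw [show s = x⁻¹ * (u * (a x hx (e.symm j) : GL (Fin n) F)) by rw [← e1, inv_mul_cancel_left],
      show t = x⁻¹ * (u * (a x hx (e.symm j') : GL (Fin n) F)) by rw [← e2, inv_mul_cancel_left]]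
    have hm := mul_mem (inv_mem (a x hx (e.symm j)).2) (a x hx (e.symm j')).2
    simpa [mul_assoc] using hm
  · have hP : (frameGL b' (Equiv.refl _))⁻¹ * x * frameGL b' (Equiv.refl _) =
        glReindex (Equiv.refl (Fin n)).symm (coordGL b' x) := by
      conv_lhs => rw [← conj_coord b' (Equiv.refl _) x]
      group
    rw [hP]
    show (coordGL b' x : Matrix (Fin n) (Fin n) F) i j = _
    rw [coordGL_apply, gu_apply]
    show (b.reindex e).repr ((x : Matrix (Fin n) (Fin n) F) *ᵥ b.reindex e j) i = _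
    rw [Module.Basis.repr_reindex_apply, Module.Basis.reindex_apply, Module.Basis.mk_apply,
      hxw x hx (e.symm j), map_smul, Finsupp.smul_apply, ← Module.Basis.mk_apply hli hsp.ge, Module.Basis.repr_self,
      Finsupp.single_apply]
    by_cases hij : i = e (q' x hx (e.symm j))
    · subst hij; simp
    · rw [if_neg (fun h' => hij (by rw [h']; simp)), if_neg hij, smul_zero]

end Cfsg.Agent.GeomClasses.Asch
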