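import Mathlib

/-! # Commuting matrix algebras and tensor bases -/

set_option autoImplicit false

namespace Cfsg.Agent.GeomClasses.Asch

open Module Finset

variable {F : Type*} [Field F] {V : Type*} [AddCommGroup V] [Module F V] [FiniteDimensional F V]

/-- No proper subspace is invariant under the set. -/
def Irr (S : Set (Module.End F V)) : Prop :=
  ∀ W : Submodule F V, (∀ s ∈ S, ∀ w ∈ W, s w ∈ W) → W = ⊥ ∨ W = ⊤

section Units

variable {t : ℕ} {d : Fin t → ℕ} (φ : ∀ i, Matrix (Fin (d i)) (Fin (d i)) F →ₐ[F] Module.End F V)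
  (hcomm : Pairwise fun i j => ∀ X Y, Commute (φ i X) (φ j Y))

/-- The product action of a tuple of matrices. -/
noncomputable def tup : (∀ i, Matrix (Fin (d i)) (Fin (d i)) F) →* Module.End F V :=
  MonoidHom.noncommPiCoprod (fun i => (φ i).toMonoidHom) hcomm

include hcomm

theorem tup_mulSingle (j : Fin t) (X : Matrix (Fin (d j)) (Fin (d j)) F) :
    tup φ hcomm (Pi.mulSingle j X) = φ j X := by
  simp [tup]

theorem phi_mul_tup (j : Fin t) (X : Matrix (Fin (d j)) (Fin (d j)) F) (g : ∀ i, Matrix (Fin (d i)) (Fin (d i)) F) :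
    φ j X * tup φ hcomm g = tup φ hcomm (Function.update g j (X * g j)) := by
  rw [← tup_mulSingle φ hcomm, ← map_mul]
  congr 1
  funext i
  by_cases h : i = j
  · subst h; simp
  · simp [Function.update_of_ne h, Pi.mulSingle_eq_of_ne h]

theorem tup_scalar (c : Fin t → F) :
    tup φ hcomm (fun i => c i • 1) = algebraMap F _ (∏ i, c i) := by
  classical
  have key : ∀ s : Finset (Fin t), tup φ hcomm (fun i => if i ∈ s then c i • 1 else 1) =
      algebraMap F _ (∏ i ∈ s, c i) := by
    intro s
    induction s using Finset.induction_on with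
    | empty =>
      simp only [Finset.notMem_empty, if_false, Finset.prod_empty, map_one]
      exact map_one (tup φ hcomm)
    | insert a s ha ih =>
      rw [Finset.prod_insert ha, map_mul, ← ih, show algebraMap F (Module.End F V) (c a) =
        φ a (c a • 1) by rw [← Algebra.algebraMap_eq_smul_one, AlgHom.commutes], phi_mul_tup φ hcomm]
      congr 1
      funext i
      by_cases h : i = a
      · subst h; simp [ha]
      · simp [Function.update_of_ne h, h]
  simpa using key univ

theorem tup_eq_zero {g : ∀ i, Matrix (Fin (d i)) (Fin (d i)) F} (j : Fin t) (hj : g j = 0) :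
    tup φ hcomm g = 0 := by
  have := phi_mul_tup φ hcomm j 0 g
  rw [map_zero, zero_mul, zero_mul] at this
  rw [this, ← hj, Function.update_eq_self]

/-- A common fixed vector of the first diagonal units. -/
theorem exists_highest [Nontrivial V] (z : ∀ i, Fin (d i)) :
    ∃ v : V, v ≠ 0 ∧ ∀ i, φ i (Matrix.single (z i) (z i) 1) v = v := by
  classical
  have key : ∀ s : Finset (Fin t), ∃ v : V, v ≠ 0 ∧ ∀ i ∈ s, φ i (Matrix.single (z i) (z i) 1) v = v := by
    intro s
    induction s using Finset.induction_on with
    | empty => obtain ⟨v, hv⟩ := exists_ne (0 : V); exact ⟨v, hv, by simp⟩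
    | insert a s ha ih =>
      obtain ⟨v, hv, hfix⟩ := ih
      obtain ⟨b, hb⟩ : ∃ b, φ a (Matrix.single (z a) b 1) v ≠ 0 := by
        by_contra h
        push_neg at h
        have h1 : φ a 1 v = v := by simp
        rw [← Matrix.sum_single_one] at h1
        rw [map_sum, LinearMap.sum_apply] at h1
        refine hv (h1 ▸ Finset.sum_eq_zero fun b _ => ?_)
        rw [show Matrix.single b b (1 : F) = Matrix.single b (z a) 1 * Matrix.single (z a) b 1 by simp,
          map_mul, Module.End.mul_apply, h b, map_zero]
      refine ⟨_, hb, fun i hi => ?_⟩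
      rcases Finset.mem_insert.mp hi with rfl | hi
      · rw [← Module.End.mul_apply, ← map_mul, Matrix.single_mul_single_same, one_mul]
      · have hne : i ≠ a := fun e => ha (e ▸ hi)
        rw [← Module.End.mul_apply, (hcomm hne _ _).eq, Module.End.mul_apply, hfix i hi]
  obtain ⟨v, hv, h⟩ := key univ
  exact ⟨v, hv, fun i => h i (mem_univ i)⟩

/-- A basis on which every factor acts on its own index. -/
theorem exists_tensor_basis [Nontrivial V] (hd : ∀ i, 0 < d i)
    (hirr : Irr (⋃ i, Set.range (φ i))) :
    ∃ b : Module.Basis (∀ i, Fin (d i)) F V, ∀ (g : ∀ i, Matrix (Fin (d i)) (Fin (d i)) F) x y,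
      b.repr (tup φ hcomm g (b y)) x = ∏ i, g i (x i) (y i) := by
  classical
  let z : ∀ i, Fin (d i) := fun i => ⟨0, hd i⟩
  obtain ⟨v, hv, hfix⟩ := exists_highest φ hcomm z
  let u : (∀ i, Fin (d i)) → V := fun f => tup φ hcomm (fun i => Matrix.single (f i) (z i) 1) v
  have hall : tup φ hcomm (fun i => Matrix.single (z i) (z i) (1 : F)) v = v := by
    have : ∀ s : Finset (Fin t),
        tup φ hcomm (fun i => if i ∈ s then Matrix.single (z i) (z i) (1 : F) else 1) v = v := by
      intro s
      induction s using Finset.induction_on with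
      | empty => simp only [Finset.notMem_empty, if_false]; rw [show (fun i => (1 : Matrix (Fin (d i)) (Fin (d i)) F)) = 1 from rfl, map_one]; simp
      | insert a s ha ih =>
        have e : (fun i => if i ∈ insert a s then Matrix.single (z i) (z i) (1 : F) else 1) =
            Function.update (fun i => if i ∈ s then Matrix.single (z i) (z i) (1 : F) else 1) a
              (Matrix.single (z a) (z a) 1 * (if a ∈ s then Matrix.single (z a) (z a) (1 : F) else 1)) := by
          funext i
          by_cases h : i = a
          · subst h; simp [ha]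
          · simp [Function.update_of_ne h, h]
        rw [e, ← phi_mul_tup φ hcomm a _ (fun i => if i ∈ s then Matrix.single (z i) (z i) (1 : F) else 1),
          Module.End.mul_apply, ih, hfix a]
    simpa using this univ
  have hcoef : ∀ (x y : ∀ i, Fin (d i)) (g : ∀ i, Matrix (Fin (d i)) (Fin (d i)) F),
      tup φ hcomm (fun i => Matrix.single (z i) (x i) 1) (tup φ hcomm g (u y)) = (∏ i, g i (x i) (y i)) • v := by
    intro x y g
    rw [← Module.End.mul_apply, ← map_mul, ← Module.End.mul_apply, ← map_mul]
    have e : ((fun i => Matrix.single (z i) (x i) (1 : F)) * g * fun i => Matrix.single (y i) (z i) 1) =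
        (fun i => g i (x i) (y i) • 1) * fun i => Matrix.single (z i) (z i) (1 : F) := by
      funext i
      simp [Matrix.single_mul_mul_single]
    rw [e, map_mul, tup_scalar φ hcomm, Module.End.mul_apply, hall, Module.algebraMap_end_apply]
  have hu : ∀ x y : (∀ i, Fin (d i)), tup φ hcomm (fun i => Matrix.single (z i) (x i) 1) (u y) = if x = y then v else 0 := by
    intro x y
    have := hcoef x y 1
    rw [map_one, Module.End.one_apply] at this
    rw [this]
    by_cases h : x = y
    · subst h; simp
    · obtain ⟨i, hi⟩ := Function.ne_iff.mp h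
      rw [if_neg h, Finset.prod_eq_zero (mem_univ i) (show (1 : Matrix (Fin (d i)) (Fin (d i)) F) (x i) (y i) = 0 from Matrix.one_apply_ne hi), zero_smul]
  have hli : LinearIndependent F u := by
    rw [Fintype.linearIndependent_iff]
    intro c hc x
    have := congrArg (tup φ hcomm (fun i => Matrix.single (z i) (x i) 1)) hc
    simp only [map_sum, map_smul, hu, map_zero, smul_ite, smul_zero, Finset.sum_ite_eq, mem_univ, if_true] at this
    exact (smul_eq_zero.mp this).resolve_right hv
  have hsp : Submodule.span F (Set.range u) = ⊤ := by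
    refine (hirr _ ?_).resolve_left fun h => hv ?_
    · rintro s hs w hw
      obtain ⟨i, X, rfl⟩ := Set.mem_iUnion.mp hs
      induction hw using Submodule.span_induction with
      | zero => simp
      | add a b _ _ ha hb => rw [map_add]; exact add_mem ha hb
      | smul c a _ ha => rw [map_smul]; exact Submodule.smul_mem _ c ha
      | mem a ha =>
        obtain ⟨f, rfl⟩ := ha
        rw [Matrix.matrix_eq_sum_single X, map_sum, LinearMap.sum_apply]
        refine Submodule.sum_mem _ fun k _ => ?_
        rw [map_sum, LinearMap.sum_apply]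
        refine Submodule.sum_mem _ fun l _ => ?_
        rw [show Matrix.single k l (X k l) = X k l • Matrix.single k l (1 : F) by simp, map_smul,
          LinearMap.smul_apply]
        refine Submodule.smul_mem _ _ ?_
        simp only [u]
        rw [← Module.End.mul_apply, phi_mul_tup φ hcomm]
        by_cases hl : l = f i
        · subst hl
          refine Submodule.subset_span ⟨Function.update f i k, ?_⟩
          simp only [u]
          congr 2
          funext j
          by_cases hj : j = i
          · subst hj; simp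
          · simp [Function.update_of_ne hj]
        · rw [tup_eq_zero φ hcomm i (by simp [Matrix.single_mul_single_of_ne _ _ _ _ hl])]
          simp
    · have : v ∈ Submodule.span F (Set.range u) := by
        refine Submodule.subset_span ⟨z, ?_⟩
        exact hall
      rwa [h, Submodule.mem_bot] at this
  let b := Module.Basis.mk hli hsp.ge
  refine ⟨b, fun g x y => ?_⟩
  have e := congrArg (tup φ hcomm (fun i => Matrix.single (z i) (x i) 1)) (b.sum_repr (tup φ hcomm g (b y)))
  simp only [b, Module.Basis.mk_apply, map_sum, map_smul, hu, smul_ite, smul_zero, Finset.sum_ite_eq, mem_univ,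
    if_true, hcoef] at e
  simp only [b, Module.Basis.mk_apply]; exact smul_left_injective F hv e

end Units

/-- An operator commuting with all factors is a scalar. -/
theorem commute_all_scalar {t : ℕ} {d : Fin t → ℕ} (φ : ∀ i, Matrix (Fin (d i)) (Fin (d i)) F →ₐ[F] Module.End F V)
    (hcomm : Pairwise fun i j => ∀ X Y, Commute (φ i X) (φ j Y)) [Nontrivial V] (hd : ∀ i, 0 < d i)
    (hirr : Irr (⋃ i, Set.range (φ i))) {X : Module.End F V} (hX : ∀ i M, Commute X (φ i M)) :
    ∃ c : F, X = algebraMap F _ c := by
  classical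
  obtain ⟨b, hb⟩ := exists_tensor_basis φ hcomm hd hirr
  have hXc : ∀ g, Commute X (tup φ hcomm g) := fun g => by
    have : ∀ i, Commute X (φ i (g i)) := fun i => hX i _
    exact Finset.noncommProd_commute _ _ _ _ fun i _ => this i
  have happ : ∀ g y, tup φ hcomm g (b y) = ∑ x, (∏ i, g i (x i) (y i)) • b x := by
    intro g y
    conv_lhs => rw [← b.sum_repr (tup φ hcomm g (b y))]
    simp only [hb]
  let z : ∀ i, Fin (d i) := fun i => ⟨0, hd i⟩
  have hu : ∀ f x : (∀ i, Fin (d i)), (∏ i, Matrix.single (f i) (z i) (1 : F) (x i) (z i)) = if x = f then 1 else 0 := by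
    intro f x
    by_cases h : x = f
    · subst h; simp
    · obtain ⟨i, hi⟩ := Function.ne_iff.mp h
      rw [if_neg h, Finset.prod_eq_zero (mem_univ i)]
      simp [Ne.symm hi]
  have hgen : ∀ f : (∀ i, Fin (d i)), b f = tup φ hcomm (fun i => Matrix.single (f i) (z i) 1) (b z) := by
    intro f; rw [happ]; simp [hu]
  obtain ⟨c, hc⟩ : ∃ c : F, X (b z) = c • b z := by
    refine ⟨b.repr (X (b z)) z, ?_⟩
    have e : tup φ hcomm (fun i => Matrix.single (z i) (z i) 1) (X (b z)) = X (b z) := by
      rw [← Module.End.mul_apply, ← (hXc _).eq, Module.End.mul_apply, ← hgen z]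
    conv_lhs => rw [← e, ← b.sum_repr (X (b z)), map_sum]
    rw [Finset.sum_eq_single z]
    · rw [map_smul, ← hgen z]
    · intro y _ hy
      rw [map_smul, happ]
      refine smul_eq_zero_of_right _ (Finset.sum_eq_zero fun x _ => ?_)
      obtain ⟨i, hi⟩ := Function.ne_iff.mp hy
      rw [Finset.prod_eq_zero (mem_univ i) (by simp [Ne.symm hi]), zero_smul]
    · simp
  refine ⟨c, b.ext fun f => ?_⟩
  rw [hgen f, ← Module.End.mul_apply, (hXc _).eq, Module.End.mul_apply, hc, map_smul,
    Module.algebraMap_end_apply]

/-- Every automorphism of a matrix algebra is inner. -/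
theorem exists_inner {m : ℕ} (α : Matrix (Fin m) (Fin m) F ≃ₐ[F] Matrix (Fin m) (Fin m) F) :
    ∃ g : GL (Fin m) F, ∀ X, α X = (g : Matrix _ _ F) * X * (g⁻¹ : GL (Fin m) F).val := by
  classical
  rcases Nat.eq_zero_or_pos m with rfl | hm
  · exact ⟨1, fun X => Subsingleton.elim _ _⟩
  haveI : Nonempty (Fin m) := ⟨⟨0, hm⟩⟩
  let φ : ∀ _ : Fin 1, Matrix (Fin m) (Fin m) F →ₐ[F] Module.End F (Fin m → F) :=
    fun _ => Matrix.toLinAlgEquiv'.toAlgHom.comp α.toAlgHom
  have hcomm : Pairwise fun i j => ∀ X Y, Commute (φ i X) (φ j Y) := fun i j h => absurd (Subsingleton.elim i j) h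
  have hirr : Irr (⋃ i, Set.range (φ i)) := by
    intro W hW
    refine (eq_or_ne W ⊥).imp_right fun hW0 => eq_top_iff.mpr fun x _ => ?_
    obtain ⟨w, hw, hw0⟩ := (Submodule.ne_bot_iff W).mp hW0
    obtain ⟨j, hj⟩ := Function.ne_iff.mp hw0
    have := hW (φ 0 (α.symm (Matrix.vecMulVec x (Pi.single j (w j)⁻¹)))) (Set.mem_iUnion.mpr ⟨0, _, rfl⟩) w hw
    convert this using 1
    simp only [φ, AlgHom.comp_apply, AlgEquiv.coe_toAlgHom, AlgEquiv.apply_symm_apply,
      Matrix.toLinAlgEquiv'_apply, Matrix.vecMulVec_mulVec, single_dotProduct]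
    rw [inv_mul_cancel₀ (by simpa using hj)]
    simp
  obtain ⟨b, hb⟩ := exists_tensor_basis φ hcomm (fun _ => hm) hirr
  let b' : Module.Basis (Fin m) F (Fin m → F) := b.reindex (Equiv.funUnique (Fin 1) (Fin m))
  let L : Matrix (Fin m) (Fin m) F := (Pi.basisFun F (Fin m)).toMatrix b'
  let g : GL (Fin m) F := ⟨L, b'.toMatrix (Pi.basisFun F (Fin m)),
    Module.Basis.toMatrix_mul_toMatrix_flip _ _, Module.Basis.toMatrix_mul_toMatrix_flip _ _⟩
  refine ⟨g, fun X => ?_⟩
  have hX : LinearMap.toMatrix b' b' (Matrix.toLin' (α X)) = X := by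
    ext x y
    rw [LinearMap.toMatrix_apply]
    have := hb (fun _ => X) (fun _ => x) (fun _ => y)
    have e : tup φ hcomm (fun _ => X) = φ 0 X := by
      rw [← tup_mulSingle φ hcomm 0 X]
      congr 1
      funext i
      rw [Subsingleton.elim i 0, Pi.mulSingle_eq_same]
    rw [e] at this
    simp only [Fintype.prod_unique] at this
    simp only [b', Module.Basis.reindex_apply, Module.Basis.repr_reindex, Finsupp.mapDomain_equiv_apply]
    exact this
  show α X = L * X * b'.toMatrix (Pi.basisFun F (Fin m))
  conv_rhs => rw [← hX]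
  rw [basis_toMatrix_mul_linearMap_toMatrix_mul_basis_toMatrix, LinearMap.toMatrix_eq_toMatrix',
    LinearMap.toMatrix'_toLin']

end Cfsg.Agent.GeomClasses.Asch
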