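import Cfsg.Agent.GeomClasses.Aschbacher.Forms
import Cfsg.Agent.GeomClasses.Aschbacher.Tensor

/-! # Spanning groups realisable over a subfield -/

set_option autoImplicit false

namespace Cfsg.Agent.GeomClasses.Asch

open Matrix Cfsg.Geo

variable {F : Type*} [Field F] [Fintype F] {n : ℕ}

/-- A proper subfield lies in one of prime index. -/
theorem exists_prime_index {F₀ : Subfield F} (h : F₀ ≠ ⊤) :
    ∃ (F₁ : Subfield F) (r : ℕ), r.Prime ∧ F₀ ≤ F₁ ∧ Fintype.card F = Nat.card F₁ ^ r := by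
  haveI : Fintype F₀ := Fintype.ofFinite _
  have hdeg : Module.finrank F₀ F ≠ 1 := fun h1 => h (eq_top_iff.mpr fun x _ => by
    obtain ⟨a, ha⟩ := (finrank_eq_one_iff_of_nonzero' (1 : F) one_ne_zero).mp h1 x
    rw [← ha, Subfield.smul_def, smul_eq_mul, mul_one]
    exact a.2)
  obtain ⟨r, hr, hdvd⟩ := Nat.exists_prime_and_dvd hdeg
  haveI : Fact r.Prime := ⟨hr⟩
  have hdvd' : r ∣ Nat.card (F ≃ₐ[F₀] F) := by rwa [IsGalois.card_aut_eq_finrank]
  obtain ⟨s, hs⟩ := exists_prime_orderOf_dvd_card' r hdvd'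
  let L : IntermediateField F₀ F := IntermediateField.fixedField (Subgroup.zpowers s)
  have hL : Module.finrank L F = r := by
    rw [IntermediateField.finrank_fixedField_eq_card, Nat.card_zpowers, hs]
  refine ⟨L.toSubfield, r, hr, fun x hx => L.algebraMap_mem ⟨x, hx⟩, ?_⟩
  haveI : Fintype L := Fintype.ofFinite _
  rw [Module.card_eq_pow_finrank (K := L) (V := F), hL]
  congr 1
  rw [← Nat.card_eq_fintype_card]
  rfl

/-- The normaliser of a spanning group realisable over a proper subfield is in the subfield class. -/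
theorem good_of_realisable {H X : Subgroup (GL (Fin n) F)} (hX : Full X)
    (hnorm : ∀ g ∈ H, ∀ x ∈ X, g * x * g⁻¹ ∈ X) {F₀ : Subfield F} (hF₀ : F₀ ≠ ⊤)
    (hreal : RealisableOver F₀ (matrixSet X)) : Good H := by
  classical
  obtain ⟨F₁, r, hr, hle, hcard⟩ := exists_prime_index hF₀
  obtain ⟨B, hB⟩ := hreal
  refine ⟨subfieldSubgroup F₁ B⁻¹, ?_, fun g hg => ?_⟩
  · iterate 6 right
    exact Or.inl ⟨F₁, r, B⁻¹, hr, hcard, rfl⟩
  refine ⟨B * g * B⁻¹, ?_, by simp [mul_assoc]⟩
  set h : GL (Fin n) F := B * g * B⁻¹ with hh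
  let ι : Matrix (Fin n) (Fin n) F₁ →+* Matrix (Fin n) (Fin n) F := (F₁.subtype).mapMatrix
  have hιinj : Function.Injective ι := fun a b hab => Matrix.ext fun i j => Subtype.ext (congrFun (congrFun hab i) j)
  let X' : Set (Matrix (Fin n) (Fin n) F₁) := {Y | ∃ x ∈ X, ι Y = ((B * x * B⁻¹ : GL (Fin n) F) : Matrix _ _ F)}
  have hlift : ∀ x ∈ X, ∃ Y ∈ X', ι Y = ((B * x * B⁻¹ : GL (Fin n) F) : Matrix (Fin n) (Fin n) F) := fun x hx => by
    refine ⟨Matrix.of fun i j => ⟨_, hle (hB _ ⟨x, hx, rfl⟩ i j)⟩, ⟨x, hx, ?_⟩, ?_⟩ <;>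
      (ext i j; simp [ι])
  have hspanF : ∀ Z : Matrix (Fin n) (Fin n) F, Z ∈ Submodule.span F (ι '' X') := by
    intro Z
    have key : ∀ W : Matrix (Fin n) (Fin n) F, (B : Matrix (Fin n) (Fin n) F) * W * (B⁻¹ : GL (Fin n) F).val ∈
        Submodule.span F (ι '' X') := by
      intro W
      have hW : W ∈ Submodule.span F (matrixSet X) := hX ▸ trivial
      induction hW using Submodule.span_induction with
      | mem y hy =>
        obtain ⟨x, hx, rfl⟩ := hy
        obtain ⟨Y, hY, e⟩ := hlift x hx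
        exact Submodule.subset_span ⟨Y, hY, by rw [e]; simp⟩
      | zero => simp
      | add a b _ _ ha hb => rw [mul_add, add_mul]; exact add_mem ha hb
      | smul c a _ ha => rw [Matrix.mul_smul, Matrix.smul_mul]; exact Submodule.smul_mem _ c ha
    have := key ((B⁻¹ : GL (Fin n) F).val * Z * (B : Matrix (Fin n) (Fin n) F))
    simpa [mul_assoc] using this
  have hspan1 : ∀ Z : Matrix (Fin n) (Fin n) F₁, Z ∈ Submodule.span F₁ X' := by
    intro Z
    by_contra hZ
    obtain ⟨f, hf, hf0⟩ := Submodule.exists_dual_map_eq_bot_of_notMem hZ inferInstance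
    have hsum : ∀ Y : Matrix (Fin n) (Fin n) F₁, f Y = ∑ i, ∑ j, Y i j * f (Matrix.single i j 1) := by
      intro Y
      conv_lhs => rw [Matrix.matrix_eq_sum_single Y]
      simp only [map_sum]
      refine Finset.sum_congr rfl fun i _ => Finset.sum_congr rfl fun j _ => ?_
      rw [show Matrix.single i j (Y i j) = Y i j • Matrix.single i j (1 : F₁) by simp, map_smul, smul_eq_mul]
    let φ : Matrix (Fin n) (Fin n) F →ₗ[F] F :=
      ∑ i, ∑ j, (f (Matrix.single i j 1) : F) • Matrix.entryLinearMap F F i j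
    have hφ : ∀ Y, φ (ι Y) = (f Y : F) := by
      intro Y
      rw [hsum]
      simp [φ, ι, mul_comm]
    have hvan : ∀ W, φ W = 0 := by
      intro W
      induction hspanF W using Submodule.span_induction with
      | mem y hy =>
        obtain ⟨Y, hY, rfl⟩ := hy
        have : f Y = 0 := by
          have : f Y ∈ (Submodule.span F₁ X').map f := ⟨Y, Submodule.subset_span hY, rfl⟩
          rwa [hf0, Submodule.mem_bot] at this
        rw [hφ, this]; rfl
      | zero => simp
      | add a b _ _ ha hb => rw [map_add, ha, hb, add_zero]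
      | smul c a _ ha => rw [map_smul, ha, smul_zero]
    exact hf (Subtype.ext ((hφ Z).symm.trans (hvan _)))
  have hconj : ∀ Z, ∃ Z', ι Z' = (h : Matrix (Fin n) (Fin n) F) * ι Z * (h⁻¹ : GL (Fin n) F).val := by
    intro Z
    induction hspan1 Z using Submodule.span_induction with
    | mem y hy =>
      obtain ⟨x, hx, e⟩ := hy
      obtain ⟨Y, -, e'⟩ := hlift _ (hnorm g hg x hx)
      refine ⟨Y, ?_⟩
      rw [e', e, ← Units.val_mul, ← Units.val_mul]
      congr 1
      simp [hh, mul_assoc]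
    | zero => exact ⟨0, by simp⟩
    | add a b _ _ ha hb =>
      obtain ⟨a', ea⟩ := ha; obtain ⟨b', eb⟩ := hb
      exact ⟨a' + b', by rw [map_add, map_add, ea, eb, mul_add, add_mul]⟩
    | smul c a _ ha =>
      obtain ⟨a', ea⟩ := ha
      have hs : ∀ Y : Matrix (Fin n) (Fin n) F₁, ι (c • Y) = (c : F) • ι Y := fun Y => by ext i j; simp [ι]
      exact ⟨c • a', by rw [hs, hs, ea, Matrix.mul_smul, Matrix.smul_mul]⟩
  choose α hα using hconj
  have hιalg : ∀ c : F₁, (h : Matrix (Fin n) (Fin n) F) * ι (algebraMap F₁ _ c) * (h⁻¹ : GL (Fin n) F).val =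
      ι (algebraMap F₁ _ c) := fun c => by
    have : ι (algebraMap F₁ _ c) = algebraMap F _ (c : F) := by
      ext i j
      by_cases e : i = j <;> simp [ι, Matrix.algebraMap_matrix_apply, e]
    rw [this, ← Algebra.commutes, mul_assoc, Units.mul_inv, mul_one]
  let αh : Matrix (Fin n) (Fin n) F₁ →ₐ[F₁] Matrix (Fin n) (Fin n) F₁ :=
    { toFun := α
      map_one' := hιinj (by rw [hα, map_one]; simp)
      map_mul' := fun a b => hιinj (by rw [hα, map_mul, map_mul, hα, hα]; simp [mul_assoc])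
      map_zero' := hιinj (by rw [hα, map_zero]; simp)
      map_add' := fun a b => hιinj (by rw [hα, map_add, map_add, hα, hα]; simp [mul_add, add_mul])
      commutes' := fun c => hιinj (by rw [hα, hιalg]) }
  have hαinj : Function.Injective αh := fun a b hab => by
    have := (hα a).symm.trans ((congrArg ι (show α a = α b from hab)).trans (hα b))
    have h2 := congrArg (fun M => (h⁻¹ : GL (Fin n) F).val * M * (h : Matrix (Fin n) (Fin n) F)) this
    exact hιinj (by simpa [mul_assoc] using h2)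
  obtain ⟨a, ha⟩ := exists_inner (AlgEquiv.ofBijective αh
    ⟨hαinj, LinearMap.injective_iff_surjective (f := αh.toLinearMap) |>.mp hαinj⟩)
  let A : GL (Fin n) F := Matrix.GeneralLinearGroup.map (F₁.subtype : F₁ →+* F) a
  have hA : (A : Matrix (Fin n) (Fin n) F) = ι a := rfl
  have hA' : (A⁻¹ : GL (Fin n) F).val = ι (a⁻¹ : GL (Fin n) F₁).val := by
    rw [show A⁻¹ = Matrix.GeneralLinearGroup.map (F₁.subtype : F₁ →+* F) a⁻¹ from (map_inv _ a).symm]
    rfl
  have hsc : A⁻¹ * h ∈ scalars (Fin n) F := by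
    obtain ⟨c, hc⟩ : ((A⁻¹ * h : GL (Fin n) F) : Matrix (Fin n) (Fin n) F) ∈ Set.range (Matrix.scalar (Fin n)) :=
      Matrix.mem_range_scalar_iff_commute_single'.mpr (fun i j => by
        have e : Matrix.single i j (1 : F) = ι (Matrix.single i j 1) := by
          ext k l; simp [ι, Matrix.single_apply, apply_ite]
        have h1 : (h : Matrix (Fin n) (Fin n) F) * Matrix.single i j 1 =
            (A : Matrix (Fin n) (Fin n) F) * Matrix.single i j 1 * (A⁻¹ : GL (Fin n) F).val * (h : Matrix (Fin n) (Fin n) F) := by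
          have h0 : ι (α (Matrix.single i j 1)) = ι ((a : Matrix (Fin n) (Fin n) F₁) * Matrix.single i j 1 *
              (a⁻¹ : GL (Fin n) F₁).val) := congrArg ι (ha _)
          rw [hA, hA', e, ← map_mul, ← map_mul, ← h0, hα, mul_assoc, Units.inv_mul, mul_one]
        show _ * _ = _ * _
        rw [Units.val_mul, mul_assoc _ (h : Matrix (Fin n) (Fin n) F), h1]
        simp [mul_assoc])
    rcases Nat.eq_zero_or_pos n with rfl | hn
    · exact (mem_scalars_iff _).mpr ⟨1, Subsingleton.elim _ _⟩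
    haveI : Nonempty (Fin n) := ⟨⟨0, hn⟩⟩
    refine (mem_scalars_iff _).mpr ⟨Units.mk0 c fun h0 => (A⁻¹ * h).ne_zero (by rw [← hc, h0, map_zero]), ?_⟩
    refine hc.symm.trans ?_
    exact (Matrix.smul_one_eq_diagonal c).symm
  have := Subgroup.mul_mem_sup (show A ∈ (Matrix.GeneralLinearGroup.map (F₁.subtype : F₁ →+* F)).range from ⟨a, rfl⟩) hsc
  rwa [mul_inv_cancel_left] at this

end Cfsg.Agent.GeomClasses.Asch
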