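import Cfsg.Agent.GeomClasses.Aschbacher.Normal
import Cfsg.Agent.GeomClasses.Aschbacher.Subfield
import Cfsg.Agent.GeomClasses.Aschbacher.FixedForms

/-! # The nonabelian socle case -/

set_option autoImplicit false
set_option maxHeartbeats 400000

namespace Cfsg.Agent.GeomClasses.Asch

open Matrix Cfsg.Geo
open scoped commutatorElement

variable {F : Type*} [Field F] {n : ℕ}

local notation "Zs" => scalars (Fin n) F

theorem scalars_comm {z : GL (Fin n) F} (hz : z ∈ Zs) (g : GL (Fin n) F) : z * g = g * z := by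
  obtain ⟨c, hc⟩ := (mem_scalars_iff z).mp hz
  refine Units.ext ?_
  rw [Units.val_mul, Units.val_mul, hc, Matrix.smul_mul, Matrix.mul_smul, one_mul, mul_one]

theorem commutatorElement_central {a b z w : GL (Fin n) F} (hz : z ∈ Zs) (hw : w ∈ Zs) :
    ⁅a * z, b * w⁆ = ⁅a, b⁆ := by
  have e1 : ∀ g, z * g = g * z := scalars_comm hz
  have e2 : ∀ g, w * g = g * w := scalars_comm hw
  simp only [commutatorElement_def, _root_.mul_inv_rev]
  calc a * z * (b * w) * (z⁻¹ * a⁻¹) * (w⁻¹ * b⁻¹) = a * (z * (b * w)) * z⁻¹ * a⁻¹ * w⁻¹ * b⁻¹ := by group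
    _ = a * (b * w) * a⁻¹ * w⁻¹ * b⁻¹ := by rw [e1]; group
    _ = a * b * (w * a⁻¹) * w⁻¹ * b⁻¹ := by group
    _ = _ := by rw [e2]; group

theorem commutator_sup_scalars (A B : Subgroup (GL (Fin n) F)) : ⁅A ⊔ Zs, B ⊔ Zs⁆ ≤ ⁅A, B⁆ := by
  rw [Subgroup.commutator_le]
  intro x hx y hy
  rw [← SetLike.mem_coe, Subgroup.mul_normal] at hx hy
  obtain ⟨a, ha, z, hz, rfl⟩ := hx
  obtain ⟨b, hb, w, hw, rfl⟩ := hy
  rw [commutatorElement_central hz hw]
  exact Subgroup.commutator_mem_commutator ha hb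

theorem commutator_le_scalars_iff (A B : Subgroup (GL (Fin n) F)) :
    ⁅A, B⁆ ≤ Zs ↔ A.map (QuotientGroup.mk' Zs) ≤ Subgroup.centralizer (B.map (QuotientGroup.mk' Zs)) := by
  rw [← Subgroup.commutator_eq_bot_iff_le_centralizer, ← Subgroup.map_commutator, Subgroup.map_eq_bot_iff,
    QuotientGroup.ker_mk']

theorem NormalisedBy.commutator {K A B : Subgroup (GL (Fin n) F)} (hA : NormalisedBy K A) (hB : NormalisedBy K B) :
    NormalisedBy K ⁅A, B⁆ := by
  intro g hg x hx
  have h1 : ∀ C : Subgroup (GL (Fin n) F), NormalisedBy K C → C.map (MulAut.conj g).toMonoidHom ≤ C := by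
    rintro C hC _ ⟨y, hy, rfl⟩; exact hC g hg y hy
  have := Subgroup.commutator_mono (h1 A hA) (h1 B hB)
  rw [← Subgroup.map_commutator] at this
  exact this ⟨x, hx, rfl⟩

theorem NormalisedBy.sup_scalars {K A : Subgroup (GL (Fin n) F)} (hA : NormalisedBy K A) :
    NormalisedBy K (A ⊔ Zs) := by
  intro g hg x hx
  rw [← SetLike.mem_coe, Subgroup.mul_normal] at hx ⊢
  obtain ⟨a, ha, z, hz, rfl⟩ := hx
  exact ⟨g * a * g⁻¹, hA g hg a ha, g * z * g⁻¹, scalars_normal.conj_mem z hz g, by group⟩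

/-- An element centralising a perfect subgroup modulo scalars centralises it. -/
theorem perfect_commute {X : Subgroup (GL (Fin n) F)} (hX : X ≤ ⁅X, X⁆) {y : GL (Fin n) F}
    (h : ∀ x ∈ X, y * x * y⁻¹ * x⁻¹ ∈ Zs) {x : GL (Fin n) F} (hx : x ∈ X) : y * x = x * y := by
  have : ⁅X, X⁆ ≤ Subgroup.centralizer {y} := by
    rw [Subgroup.commutator_le]
    intro a ha b hb
    rw [Subgroup.mem_centralizer_singleton_iff]
    obtain ⟨z, hz, hza⟩ : ∃ z ∈ Zs, y * a * y⁻¹ = a * z := ⟨y * a * y⁻¹ * a⁻¹, h a ha, by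
      rw [← scalars_comm (h a ha)]; group⟩
    obtain ⟨w, hw, hwb⟩ : ∃ w ∈ Zs, y * b * y⁻¹ = b * w := ⟨y * b * y⁻¹ * b⁻¹, h b hb, by
      rw [← scalars_comm (h b hb)]; group⟩
    have e : y * ⁅a, b⁆ * y⁻¹ = ⁅a, b⁆ := by
      calc _ = ⁅y * a * y⁻¹, y * b * y⁻¹⁆ := by simp only [commutatorElement_def]; group
        _ = _ := by rw [hza, hwb, commutatorElement_central hz hw]
    calc ⁅a, b⁆ * y = (y * ⁅a, b⁆ * y⁻¹) * y := by rw [e]
      _ = _ := by group
  exact ((Subgroup.mem_centralizer_singleton_iff.mp (this (hX hx)))).symm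

theorem irr_of_full {X : Subgroup (GL (Fin n) F)} (hX : Full X) :
    Irr ((fun g : (Module.End F (Fin n → F))ˣ => (g : Module.End F (Fin n → F))) '' (gu '' (X : Set _))) := by
  intro W hW
  refine hX.absIrred.1 W ?_
  rintro _ ⟨x, hx, rfl⟩ _ ⟨w, hw, rfl⟩
  exact hW _ ⟨gu x, ⟨x, hx, rfl⟩, rfl⟩ w hw

theorem conj_mem_env {N N' : Subgroup (GL (Fin n) F)} {g : GL (Fin n) F} (h : ∀ x ∈ N, g * x * g⁻¹ ∈ N')
    {X : Module.End F (Fin n → F)} (hX : X ∈ env N) : conjHom (gu g) X ∈ env N' := by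
  have : env N ≤ (env N').comap (conjHom (gu g)) := by
    refine Algebra.adjoin_le ?_
    rintro _ ⟨x, hx, rfl⟩
    show (gu g : Module.End F (Fin n → F)) * (gu x : Module.End F (Fin n → F)) * ((gu g)⁻¹).val ∈ env N'
    rw [← map_inv, ← Units.val_mul, ← Units.val_mul, ← map_mul, ← map_mul]
    exact mem_env (h x hx)
  exact this hX

theorem simple_quotient {P : Subgroup (GL (Fin n) F)} (hnab : ¬ P ≤ Zs)
    (hns : ∀ N, N ≤ P → NormalisedBy P N → P ⊓ Zs < N → N = P) :
    IsSimpleGroup (P ⧸ (Zs).subgroupOf P) := by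
  haveI : Nontrivial (P ⧸ (Zs).subgroupOf P) :=
    QuotientGroup.nontrivial_iff.mpr fun h => hnab (Subgroup.subgroupOf_eq_top.mp h)
  refine ⟨fun N hN => ?_⟩
  let f : P →* P ⧸ (Zs).subgroupOf P := QuotientGroup.mk' _
  let C : Subgroup P := N.comap f
  have hC : C.Normal := hN.comap f
  let L : Subgroup (GL (Fin n) F) := C.map P.subtype
  have hLP : L ≤ P := Subgroup.map_subtype_le _
  have hLn : NormalisedBy P L := by
    intro g hg y hy
    obtain ⟨x, hx, rfl⟩ := Subgroup.mem_map.mp hy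
    exact Subgroup.mem_map.mpr ⟨_, hC.conj_mem x hx (⟨g, hg⟩ : P), rfl⟩
  have hZL : P ⊓ Zs ≤ L := by
    intro x hx
    refine Subgroup.mem_map.mpr ⟨(⟨x, hx.1⟩ : P), ?_, rfl⟩
    have h0 : f (⟨x, hx.1⟩ : P) = 1 := (QuotientGroup.eq_one_iff _).mpr hx.2
    exact Subgroup.mem_comap.mpr (by rw [h0]; exact one_mem N)
  rcases hZL.eq_or_lt with h | h
  · refine Or.inl (eq_bot_iff.mpr fun q hq => ?_)
    obtain ⟨x, rfl⟩ := QuotientGroup.mk'_surjective _ q
    have h1 : (x : GL (Fin n) F) ∈ L := Subgroup.mem_map_of_mem P.subtype (Subgroup.mem_comap.mpr hq)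
    rw [← h] at h1
    exact Subgroup.mem_bot.mpr ((QuotientGroup.eq_one_iff x).mpr h1.2)
  · refine Or.inr (eq_top_iff.mpr fun q _ => ?_)
    obtain ⟨x, rfl⟩ := QuotientGroup.mk'_surjective _ q
    have h1 : (x : GL (Fin n) F) ∈ L := by rw [hns L hLP hLn h]; exact x.2
    obtain ⟨y, hy, hyx⟩ := Subgroup.mem_map.mp h1
    obtain rfl : y = x := Subtype.ext hyx
    exact hy

theorem commutator_le_of_comm {P : Subgroup (GL (Fin n) F)}
    (hc : IsMulCommutative (P ⧸ (Zs).subgroupOf P)) : ⁅P, P⁆ ≤ Zs := by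
  rw [Subgroup.commutator_le]
  intro a ha b hb
  let f : P →* P ⧸ (Zs).subgroupOf P := QuotientGroup.mk' _
  let a' : P := ⟨a, ha⟩
  let b' : P := ⟨b, hb⟩
  have h : f ⁅a', b'⁆ = 1 := by
    rw [map_commutatorElement, commutatorElement_eq_one_iff_mul_comm]
    exact hc.is_comm.comm _ _
  exact Subgroup.mem_subgroupOf.mp ((QuotientGroup.eq_one_iff _).mp h)

variable [Fintype F]

/-- The perfect subgroup is simple modulo scalars, or the group permutes tensor factors. -/
theorem nonabelian_case (hn : 3 ≤ n) {H K M : Subgroup (GL (Fin n) F)} (hHK : H ≤ K) (hKH : ⁅K, K⁆ ≤ H)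
    (hMK : M ≤ K) (hM : NormalisedBy K M)
    (hmin : ∀ N, NormalisedBy K N → Zs ≤ N → N ≤ M → N = Zs ∨ N = M)
    (hfull : ∀ N, NormalisedBy K N → ¬ N ≤ Zs → Full N)
    (hnab : ¬ ⁅M, M⁆ ≤ Zs) (hZM : Zs ≤ M) : Good H ∨ InLinearResidualClass H := by
  classical
  haveI : Nonempty (Fin n) := ⟨⟨0, by omega⟩⟩
  set P := ⁅M, M⁆ with hPdef
  have hPM : P ≤ M := Subgroup.commutator_le_self M
  have hPK : NormalisedBy K P := hM.commutator hM
  have hsupM : ∀ U : Subgroup (GL (Fin n) F), NormalisedBy K U → U ≤ M → ¬ U ≤ Zs → U ⊔ Zs = M :=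
    fun U hU hUM hUZ => (hmin _ hU.sup_scalars le_sup_right (sup_le hUM hZM)).resolve_left fun h =>
      hUZ (le_sup_left.trans h.le)
  have hperf : P ≤ ⁅P, P⁆ := by
    conv_lhs => rw [hPdef, ← hsupM P hPK hPM hnab]
    exact commutator_sup_scalars P P
  have hPH : P ≤ H := (Subgroup.commutator_mono hMK hMK).trans hKH
  have hPfull : Full P := hfull P hPK hnab
  have hnormH : ∀ g ∈ H, ∀ x ∈ P, g * x * g⁻¹ ∈ P := fun g hg => hPK g (hHK hg)
  by_cases hns : ∃ N, N ≤ P ∧ NormalisedBy P N ∧ P ⊓ Zs < N ∧ N ≠ P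
  swap
  · push_neg at hns
    by_cases hsub : ∃ F₀ : Subfield F, F₀ ≠ ⊤ ∧ RealisableOver F₀ (matrixSet P)
    · obtain ⟨F₀, h1, h2⟩ := hsub
      exact Or.inl (good_of_realisable hPfull hnormH h1 h2)
    by_cases hform : (∃ Q : (Fin n → F) → F, IsNondegenerateQuadraticForm Q ∧ FixesQuadForm (matrixSet P) Q) ∨
        (∃ f : (Fin n → F) → (Fin n → F) → F, IsSymplecticForm f ∧ FixesForm (matrixSet P) f) ∨
        (∃ (σ : F ≃+* F) (f : (Fin n → F) → (Fin n → F) → F), IsUnitaryForm σ f ∧ FixesForm (matrixSet P) f)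
    · exact Or.inl (good_of_fixed hn hPfull hnormH hform)
    simp only [not_or] at hform
    push_neg at hsub
    right
    refine ⟨P, ⟨hPH, hnormH, le_antisymm (Subgroup.commutator_le_self P) hperf, ?_, ?_, ?_, hPfull.absIrred,
      fun F₀ h => hsub F₀ h⟩, hform.1, hform.2.1, hform.2.2⟩
    · exact simple_quotient hnab hns
    · exact fun hc => hnab (hperf.trans (commutator_le_of_comm hc))
    · intro h _ hcent
      obtain ⟨c, hc⟩ := hPfull.comm_scalar (M := (h : Matrix (Fin n) (Fin n) F)) fun x hx => by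
        rw [← Units.val_mul, ← Units.val_mul, perfect_commute hperf hcent hx]
      exact (mem_scalars_iff h).mpr ⟨Units.mk0 c fun h0 => h.ne_zero (by rw [hc, h0, zero_smul]), hc⟩
  left
  obtain ⟨N, ⟨⟨hNP, hNn, hNZ, hNne⟩, hNmin⟩⟩ : ∃ N, (N ≤ P ∧ NormalisedBy P N ∧ P ⊓ Zs < N ∧ N ≠ P) ∧
      ∀ L, L ≤ P → NormalisedBy P L → P ⊓ Zs ≤ L → L ≤ N → L = P ⊓ Zs ∨ L = N := by
    obtain ⟨N, hN, hm⟩ := exists_minimal_of_wellFoundedLT
      (fun N : Subgroup (GL (Fin n) F) => N ≤ P ∧ NormalisedBy P N ∧ P ⊓ Zs < N ∧ N ≠ P) hns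
    refine ⟨N, hN, fun L h1 h2 h3 h4 => ?_⟩
    rcases h3.eq_or_lt with h | h
    · exact Or.inl h.symm
    · exact Or.inr (le_antisymm h4 (hm ⟨h1, h2, h, fun e => hN.2.2.2 (le_antisymm hN.1 (e ▸ h4))⟩ h4))
  let 𝒩 := {L : Subgroup (GL (Fin n) F) // ∃ g ∈ K, L = N.map (MulAut.conj g).toMonoidHom}
  haveI : Fintype 𝒩 := Fintype.ofFinite _
  let t := Fintype.card 𝒩
  let en := Fintype.equivFin 𝒩
  let L : Fin t → Subgroup (GL (Fin n) F) := fun i => (en.symm i).1
  have hLinj : Function.Injective L := fun i j h => en.symm.injective (Subtype.ext h)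
  choose g hgK hgL using fun i => (en.symm i).2
  have hgmem : ∀ i x, x ∈ N → g i * x * (g i)⁻¹ ∈ L i := fun i x hx => by
    show _ ∈ (en.symm i).1
    rw [hgL i]; exact ⟨x, hx, rfl⟩
  have hgmem' : ∀ i x, x ∈ L i → (g i)⁻¹ * x * g i ∈ N := by
    intro i x hx
    rw [show L i = N.map (MulAut.conj (g i)).toMonoidHom from hgL i] at hx
    obtain ⟨y, hy, rfl⟩ := hx
    simpa [mul_assoc] using hy
  have hperm : ∀ k ∈ K, ∀ i, ∃ j, ∀ x ∈ L i, k * x * k⁻¹ ∈ L j := by
    intro k hk i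
    refine ⟨en ⟨N.map (MulAut.conj (k * g i)).toMonoidHom, k * g i, mul_mem hk (hgK i), rfl⟩, fun x hx => ?_⟩
    show _ ∈ (en.symm (en _)).1
    rw [Equiv.symm_apply_apply]
    exact ⟨_, hgmem' i x hx, by simp [mul_assoc]⟩
  have hLP : ∀ i, L i ≤ P := fun i x hx => by
    have := hPK (g i) (hgK i) _ (hNP (hgmem' i x hx))
    simpa [mul_assoc] using this
  have hLn : ∀ i, NormalisedBy P (L i) := by
    intro i p hp x hx
    have h1 := hNn ((g i)⁻¹ * p * g i) (by
      have := hPK (g i)⁻¹ (inv_mem (hgK i)) p hp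
      simpa using this) _ (hgmem' i x hx)
    have h2 := hgmem i _ h1
    simpa [mul_assoc] using h2
  have hLmin : ∀ i, ∀ U, U ≤ P → NormalisedBy P U → P ⊓ Zs ≤ U → U ≤ L i → U = P ⊓ Zs ∨ U = L i := by
    intro i U hUP hUn hUZ hUL
    have hconj : ∀ {x}, x ∈ P → (g i)⁻¹ * x * g i ∈ P := fun {x} hx => by
      simpa using hPK (g i)⁻¹ (inv_mem (hgK i)) x hx
    rcases hNmin (U.comap (MulAut.conj (g i)).toMonoidHom)
      (fun x hx => by
        have := hconj (hUP hx)
        simpa [mul_assoc] using this)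
      (fun p hp x hx => by
        have h := hUn (g i * p * (g i)⁻¹) (hPK _ (hgK i) p hp) _ hx
        show g i * (p * x * p⁻¹) * (g i)⁻¹ ∈ U
        simpa [mul_assoc] using h)
      (fun x hx => hUZ ⟨hPK _ (hgK i) x hx.1, scalars_normal.conj_mem x hx.2 _⟩)
      (fun x hx => by simpa [mul_assoc] using hgmem' i _ (hUL hx)) with h | h
    · left
      refine le_antisymm (fun x hx => ?_) hUZ
      refine ⟨hUP hx, ?_⟩
      have : (g i)⁻¹ * x * g i ∈ U.comap (MulAut.conj (g i)).toMonoidHom := by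
        show g i * ((g i)⁻¹ * x * g i) * (g i)⁻¹ ∈ U
        simpa [mul_assoc] using hx
      rw [h] at this
      simpa [mul_assoc] using scalars_normal.conj_mem _ this.2 (g i)
    · right
      refine le_antisymm hUL fun x hx => ?_
      have := hgmem' i x hx
      rw [← h] at this
      simpa [mul_assoc] using this
  have hdist : ∀ i j, i ≠ j → ⁅L i, L j⁆ ≤ Zs := by
    intro i j hij
    have hle : ⁅L i, L j⁆ ≤ L i ⊓ L j := by
      rw [Subgroup.commutator_le]
      intro a ha b hb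
      refine ⟨?_, ?_⟩
      · have := mul_mem ha (hLn i b (hLP j hb) _ (inv_mem ha))
        simpa [commutatorElement_def, mul_assoc] using this
      · have := mul_mem (hLn j a (hLP i ha) b hb) (inv_mem hb)
        simpa [commutatorElement_def] using this
    have hsm : ∀ k, P ⊓ Zs ≤ L k := fun k x hx => by
      have h1 : (g k)⁻¹ * x * g k ∈ N := hNZ.le ⟨by simpa using hPK (g k)⁻¹ (inv_mem (hgK k)) x hx.1,
        by simpa using scalars_normal.conj_mem x hx.2 (g k)⁻¹⟩
      simpa [mul_assoc] using hgmem k _ h1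
    rcases hLmin i (L i ⊓ L j) (inf_le_left.trans (hLP i))
      (fun p hp x hx => ⟨hLn i p hp x hx.1, hLn j p hp x hx.2⟩) (le_inf (hsm i) (hsm j)) inf_le_left with h | h
    · exact hle.trans (h.le.trans inf_le_right)
    · exfalso
      rcases hLmin j (L i) (hLP i) (hLn i) (hsm i) (inf_eq_left.mp h) with h' | h'
      · apply hNZ.ne
        refine le_antisymm hNZ.le fun x hx => ⟨hNP hx, ?_⟩
        have := (h'.le (hgmem i x hx)).2
        simpa [mul_assoc] using scalars_normal.conj_mem _ this (g i)⁻¹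
      · exact hij (hLinj h')
  have hUK : ∀ (U : Fin t → Subgroup (GL (Fin n) F)),
      (∀ k ∈ K, ∀ i j, (∀ x ∈ L i, k * x * k⁻¹ ∈ L j) → ∀ x ∈ U i, k * x * k⁻¹ ∈ U j) →
      NormalisedBy K (⨆ i, U i) := by
    intro U hU k hk x hx
    induction hx using Subgroup.iSup_induction' with
    | hp i x hx => obtain ⟨j, hj⟩ := hperm k hk i; exact Subgroup.mem_iSup_of_mem j (hU k hk i j hj x hx)
    | h1 => simp
    | hmul a b _ _ ha hb =>
      have := mul_mem ha hb
      simpa [mul_assoc] using this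
  obtain ⟨i₀, hi₀⟩ : ∃ i₀, L i₀ = N := ⟨en ⟨N, 1, one_mem K, by ext x; simp⟩, by
    show (en.symm (en _)).1 = N
    rw [Equiv.symm_apply_apply]⟩
  let Q : Fin t → Subgroup (GL (Fin n) F) := fun i => ⁅L i, L i⁆
  have hQmap : ∀ k i j, (∀ x ∈ L i, k * x * k⁻¹ ∈ L j) → ∀ x ∈ Q i, k * x * k⁻¹ ∈ Q j := by
    intro k i j h x hx
    have hle : (L i).map (MulAut.conj k).toMonoidHom ≤ L j := by rintro _ ⟨y, hy, rfl⟩; exact h y hy
    have := Subgroup.commutator_mono hle hle
    rw [← Subgroup.map_commutator] at this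
    exact this ⟨x, hx, rfl⟩
  have hQ0 : ∀ i, ¬ Q i ≤ Zs := by
    intro i hi
    have hall : ∀ a b, ⁅L a, L b⁆ ≤ Zs := by
      intro a b
      by_cases hab : a = b
      · subst hab
        intro x hx
        have h2 : ∀ z ∈ L a, (g i * (g a)⁻¹) * z * (g i * (g a)⁻¹)⁻¹ ∈ L i := fun z hz => by
          simpa [mul_assoc] using hgmem i _ (hgmem' a z hz)
        have := scalars_normal.conj_mem _ (hi (hQmap _ a i h2 x hx)) (g i * (g a)⁻¹)⁻¹
        simpa [mul_assoc] using this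
      · exact hdist a b hab
    have hU := hUK L fun k _ a b h => h
    have hUZ : ¬ (⨆ a, L a) ≤ Zs := fun h => hNZ.not_ge (le_inf hNP ((hi₀ ▸ le_iSup L i₀).trans h))
    have hMU := hsupM _ hU (iSup_le fun a => (hLP a).trans hPM) hUZ
    refine hnab ?_
    rw [hPdef, ← hMU]
    refine (commutator_sup_scalars _ _).trans ?_
    rw [commutator_le_scalars_iff, Subgroup.map_iSup]
    refine iSup_le fun a => ?_
    rw [Subgroup.le_centralizer_iff]
    exact iSup_le fun b => (commutator_le_scalars_iff _ _).mp (hall b a)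
  have hQn : ∀ i, NormalisedBy P (Q i) := fun i => (hLn i).commutator (hLn i)
  have hQP : ∀ i, Q i ≤ P := fun i => (Subgroup.commutator_le_self _).trans (hLP i)
  have hQperf : ∀ i, Q i ≤ ⁅Q i, Q i⁆ := by
    intro i
    let U := Q i ⊔ (P ⊓ Zs)
    have hUn : NormalisedBy P U := by
      intro p hp x hx
      have : U.map (MulAut.conj p).toMonoidHom ≤ U := by
        rw [Subgroup.map_sup]
        refine sup_le_sup ?_ ?_
        · rintro _ ⟨y, hy, rfl⟩; exact hQn i p hp y hy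
        · rintro _ ⟨y, hy, rfl⟩
          exact ⟨P.mul_mem (P.mul_mem hp hy.1) (P.inv_mem hp), scalars_normal.conj_mem y hy.2 p⟩
      exact this ⟨x, hx, rfl⟩
    have hUL : U ≤ L i := sup_le (Subgroup.commutator_le_self _) fun x hx => by
      have h1 : (g i)⁻¹ * x * g i ∈ N := hNZ.le ⟨by simpa using hPK (g i)⁻¹ (inv_mem (hgK i)) x hx.1,
        by simpa using scalars_normal.conj_mem x hx.2 (g i)⁻¹⟩
      simpa [mul_assoc] using hgmem i _ h1
    have hUe : U = L i := (hLmin i U (sup_le (hQP i) inf_le_left) hUn le_sup_right hUL).resolve_left fun h =>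
      hQ0 i ((le_sup_left.trans h.le).trans inf_le_right)
    calc Q i = ⁅U, U⁆ := by rw [hUe]
      _ ≤ ⁅Q i ⊔ Zs, Q i ⊔ Zs⁆ := Subgroup.commutator_mono (sup_le_sup le_rfl inf_le_right) (sup_le_sup le_rfl inf_le_right)
      _ ≤ _ := commutator_sup_scalars _ _
  have hQcomm : ∀ i j, i ≠ j → ∀ x ∈ Q i, ∀ y ∈ Q j, y * x = x * y := by
    intro i j hij x hx y hy
    refine perfect_commute (hQperf i) (fun a ha => hdist j i (Ne.symm hij) ?_) hx
    exact Subgroup.commutator_mem_commutator (Subgroup.commutator_le_self _ hy) (Subgroup.commutator_le_self _ ha)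
  have hU : P ≤ ⨆ i, Q i := by
    have h1 := hUK Q fun k _ i j h => hQmap k i j h
    have h2 := hsupM _ h1 (iSup_le fun i => (hQP i).trans hPM) fun h => hQ0 i₀ ((le_iSup Q i₀).trans h)
    rw [hPdef, ← h2]
    exact (commutator_sup_scalars _ _).trans (Subgroup.commutator_le_self _)
  have ht : 2 ≤ t := by
    by_contra h
    have hsub : ∀ i, i = i₀ := fun i => Fin.ext (by have := i.2; have := i₀.2; omega)
    have hNK : NormalisedBy K N := by
      intro k hk x hx
      obtain ⟨j, hj⟩ := hperm k hk i₀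
      have := hj x (hi₀.symm ▸ hx)
      rwa [hsub j, hi₀] at this
    have hNZ' : ¬ N ≤ Zs := fun h => hNZ.not_ge (le_inf hNP h)
    refine hNne (le_antisymm hNP ?_)
    rw [hPdef, ← hsupM N hNK (hNP.trans hPM) hNZ']
    exact (commutator_sup_scalars _ _).trans (Subgroup.commutator_le_self _)
  -- the algebra of one factor
  have hcommA : ∀ i j, i ≠ j → ∀ x ∈ env (Q i), ∀ y ∈ env (Q j), Commute x y := by
    intro i j hij x hx y hy
    have h1 : ∀ b ∈ Q j, Commute x (gu b : Module.End F (Fin n → F)) := by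
      intro b hb
      refine Algebra.commute_of_mem_adjoin_of_forall_mem_commute hx ?_ |>.symm
      rintro _ ⟨a, ha, rfl⟩
      show _ * _ = _ * _
      rw [← Units.val_mul, ← Units.val_mul, ← map_mul, ← map_mul, hQcomm i j hij a ha b hb]
    refine Algebra.commute_of_mem_adjoin_of_forall_mem_commute hy ?_
    rintro _ ⟨b, hb, rfl⟩
    exact h1 b hb
  let A := env (Q i₀)
  have hE : ∀ X : Module.End F (Fin n → F), (∀ a ∈ A, Commute X a) →
      (∀ Y, (∀ a ∈ A, Commute Y a) → Commute X Y) → ∃ c : F, X = algebraMap F _ c := by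
    intro X h1 h2
    have hgen : ∀ x ∈ ⨆ i, Q i, Commute X (gu x : Module.End F (Fin n → F)) := by
      intro x hx
      induction hx using Subgroup.iSup_induction' with
      | hp i x hx =>
        by_cases hi : i = i₀
        · subst hi; exact h1 _ (mem_env hx)
        · exact h2 _ fun a ha => hcommA i i₀ hi _ (mem_env hx) a ha
      | h1 => simp
      | hmul a b _ _ ha hb => rw [map_mul, Units.val_mul]; exact ha.mul_right hb
    obtain ⟨c, hc⟩ := hPfull.comm_scalar (M := LinearMap.toMatrix' X) fun x hx => by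
      have := congrArg LinearMap.toMatrix' (hgen x (hU hx)).eq
      rwa [gu_coe, Module.End.mul_eq_comp, Module.End.mul_eq_comp, LinearMap.toMatrix'_comp,
        LinearMap.toMatrix'_comp, LinearMap.toMatrix'_toLin'] at this
    refine ⟨c, LinearMap.toMatrix'.injective ?_⟩
    rw [hc, Algebra.algebraMap_eq_smul_one, map_smul]
    congr 1
    exact LinearMap.toMatrix'_id.symm
  have hS : ∀ u ∈ gu '' (P : Set _), Normalises A u := by
    rintro _ ⟨p, hp, rfl⟩; exact normalises_env (hQn i₀) hp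
  haveI := isSemisimple A _ hS (irr_of_full hPfull)
  obtain ⟨d, e, φA, φC, hd, he, hrange, -, -, -⟩ := central_type A hE
  have hrA : ∀ X, φA X ∈ A := fun X => hrange ▸ ⟨X, rfl⟩
  have hd2 : 2 ≤ d := by
    by_contra h
    obtain rfl : d = 1 := by omega
    refine hQ0 i₀ fun x hx => ?_
    obtain ⟨X, hX⟩ : (gu x : Module.End F (Fin n → F)) ∈ φA.range := hrange.symm ▸ mem_env hx
    refine mem_scalars_of_op (c := X 0 0) ?_
    rw [← φA.commutes]
    refine hX.symm.trans (congrArg φA ?_)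
    ext i j
    rw [Subsingleton.elim i 0, Subsingleton.elim j 0]
    simp [Matrix.algebraMap_matrix_apply]
  let φ : Fin t → (Matrix (Fin d) (Fin d) F →ₐ[F] Module.End F (Fin n → F)) :=
    fun i => (conjHom (gu (g i * (g i₀)⁻¹))).comp φA
  have hφmem : ∀ i X, φ i X ∈ env (Q i) := fun i X => by
    refine conj_mem_env (hQmap _ i₀ i fun z hz => ?_) (hrA X)
    simpa [mul_assoc] using hgmem i _ (hgmem' i₀ z hz)
  have hφsurj : ∀ i Y, Y ∈ env (Q i) → Y ∈ Set.range (φ i) := by
    intro i Y hY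
    have h1 : conjHom (gu (g i₀ * (g i)⁻¹)) Y ∈ A := conj_mem_env (hQmap _ i i₀ fun z hz => by
      simpa [mul_assoc] using hgmem i₀ _ (hgmem' i z hz)) hY
    obtain ⟨X, hX⟩ : conjHom (gu (g i₀ * (g i)⁻¹)) Y ∈ φA.range := hrange.symm ▸ h1
    refine ⟨X, ?_⟩
    show conjHom _ (φA X) = Y
    rw [show φA X = conjHom (gu (g i₀ * (g i)⁻¹)) Y from hX, conjHom_apply, conjHom_apply]
    simp [mul_assoc]
  refine Good.mono (good_power hn hd2 ht φ (fun i j hij X Y => hcommA i j hij _ (hφmem i X) _ (hφmem j Y)) ?_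
    fun k hk => ?_) hHK
  · intro W hW
    refine hPfull.absIrred.1 W ?_
    rintro _ ⟨x, hx, rfl⟩ _ ⟨w, hw, rfl⟩
    suffices ∀ y ∈ ⨆ i, Q i, ∀ w ∈ W, (gu y : Module.End F (Fin n → F)) w ∈ W from this x (hU hx) w hw
    intro y hy
    induction hy using Subgroup.iSup_induction' with
    | hp i y hy => exact hW _ (Set.mem_iUnion.mpr ⟨i, hφsurj i _ (mem_env hy)⟩)
    | h1 => simp
    | hmul a b _ _ ha hb =>
      intro w hw
      rw [map_mul, Units.val_mul, Module.End.mul_apply]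
      exact ha _ (hb w hw)
  · choose s hs using hperm k hk
    have hsinj : Function.Injective s := by
      intro a b hab
      have hkmem : ∀ i, ∀ x ∈ L (s i), k⁻¹ * x * k ∈ L i := by
        intro i x hx
        obtain ⟨j, hj⟩ := hperm k⁻¹ (inv_mem hk) (s i)
        have hji : L i ≤ L j := fun z hz => by simpa [mul_assoc] using hj _ (hs i z hz)
        rcases hLmin j (L i) (hLP i) (hLn i) (fun x hx => by
          have h1 : (g i)⁻¹ * x * g i ∈ N := hNZ.le ⟨by simpa using hPK (g i)⁻¹ (inv_mem (hgK i)) x hx.1,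
            by simpa using scalars_normal.conj_mem x hx.2 (g i)⁻¹⟩
          simpa [mul_assoc] using hgmem i _ h1) hji with h | h
        · exact absurd ((Subgroup.commutator_le_self _).trans (h.le.trans inf_le_right)) (hQ0 i)
        · have := hj x hx
          rw [← h] at this
          simpa using this
      refine hLinj (le_antisymm (fun x hx => ?_) fun x hx => ?_)
      · have := hkmem b _ (hab ▸ hs a x hx)
        rwa [show k⁻¹ * (k * x * k⁻¹) * k = x by group] at this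
      · have := hkmem a _ (hab.symm ▸ hs b x hx)
        rwa [show k⁻¹ * (k * x * k⁻¹) * k = x by group] at this
    refine ⟨Equiv.ofBijective s (Finite.injective_iff_bijective.mp hsinj), fun i X => hφsurj _ _ ?_⟩
    exact conj_mem_env (hQmap k i (s i) (hs i)) (hφmem i X)

end Cfsg.Agent.GeomClasses.Asch
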