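import Cfsg.Agent.GeomClasses.Aschbacher.Centre
import Cfsg.Agent.GeomClasses.Aschbacher.Classes
import Cfsg.Agent.GeomClasses.DecompTools

/-! # Normal subgroups of irreducible groups outside the geometric classes -/

set_option autoImplicit false

namespace Cfsg.Agent.GeomClasses.Asch

open Matrix Cfsg.Geo

variable {F : Type*} [Field F] {n : ℕ}

/-- The subgroup `N` is carried into itself by `K`. -/
def NormalisedBy (K N : Subgroup (GL (Fin n) F)) : Prop :=
  ∀ g ∈ K, ∀ x ∈ N, g * x * g⁻¹ ∈ N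

/-- The operators of a subgroup. -/
def opSet (N : Subgroup (GL (Fin n) F)) : Set (Module.End F (Fin n → F)) :=
  (fun g : GL (Fin n) F => (gu g : Module.End F (Fin n → F))) '' N

/-- The enveloping algebra of a subgroup. -/
noncomputable def env (N : Subgroup (GL (Fin n) F)) : Subalgebra F (Module.End F (Fin n → F)) :=
  Algebra.adjoin F (opSet N)

theorem mem_env {N : Subgroup (GL (Fin n) F)} {g : GL (Fin n) F} (hg : g ∈ N) :
    (gu g : Module.End F (Fin n → F)) ∈ env N :=
  Algebra.subset_adjoin ⟨g, hg, rfl⟩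

theorem env_conj_mem {N : Subgroup (GL (Fin n) F)} {g : GL (Fin n) F} (h : ∀ x ∈ N, g * x * g⁻¹ ∈ N)
    {X : Module.End F (Fin n → F)} (hX : X ∈ env N) :
    (gu g : Module.End F (Fin n → F)) * X * ((gu g)⁻¹).val ∈ env N := by
  have : env N ≤ (env N).comap (conjHom (gu g)) := by
    refine Algebra.adjoin_le ?_
    rintro _ ⟨x, hx, rfl⟩
    show (gu g : Module.End F (Fin n → F)) * (gu x : Module.End F (Fin n → F)) * ((gu g)⁻¹).val ∈ env N
    rw [← map_inv, ← Units.val_mul, ← Units.val_mul, ← map_mul, ← map_mul]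
    exact mem_env (h x hx)
  exact this hX

theorem normalises_env {K N : Subgroup (GL (Fin n) F)} (hN : NormalisedBy K N) {g : GL (Fin n) F} (hg : g ∈ K) :
    Normalises (env N) (gu g) := by
  intro X
  refine ⟨env_conj_mem (hN g hg), fun h => ?_⟩
  have := env_conj_mem (hN g⁻¹ (inv_mem hg)) h
  simpa [mul_assoc] using this

theorem mem_scalars_of_op {g : GL (Fin n) F} {c : F}
    (h : (gu g : Module.End F (Fin n → F)) = algebraMap F _ c) : g ∈ scalars (Fin n) F := by
  have hc : (g : Matrix (Fin n) (Fin n) F) = c • 1 := by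
    have := congrArg LinearMap.toMatrix' h
    rw [gu_coe, LinearMap.toMatrix'_toLin', Algebra.algebraMap_eq_smul_one, map_smul] at this
    rw [this]; congr 1; exact LinearMap.toMatrix'_id
  rcases Nat.eq_zero_or_pos n with rfl | hn
  · exact (mem_scalars_iff g).mpr ⟨1, Subsingleton.elim _ _⟩
  refine (mem_scalars_iff g).mpr ⟨Units.mk0 c fun h0 => ?_, hc⟩
  haveI : Nonempty (Fin n) := ⟨⟨0, hn⟩⟩
  exact g.ne_zero (by rw [hc, h0, zero_smul])

theorem op_span_eq_top {N : Subgroup (GL (Fin n) F)} (h : env N = ⊤) : Full N := by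
  have h1 : Submodule.span F (opSet N) = ⊤ := by
    have hsub : opSet N = (Submonoid.map ((Units.coeHom _).comp gu) N.toSubmonoid : Set (Module.End F (Fin n → F))) := rfl
    have := congrArg Subalgebra.toSubmodule h
    rw [env, Algebra.adjoin_eq_span, hsub, Submonoid.closure_eq, Algebra.top_toSubmodule, ← hsub] at this
    exact this
  show Submodule.span F (matrixSet N) = ⊤
  have h2 : opSet N = Matrix.toLin' '' (matrixSet N) := by
    rw [opSet, matrixSet, Set.image_image]; rfl
  rw [h2, show (⇑(Matrix.toLin' (R := F) (m := Fin n) (n := Fin n))) =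
    ⇑(Matrix.toLin' (R := F) (m := Fin n) (n := Fin n)).toLinearMap from rfl, ← Submodule.map_span] at h1
  refine Submodule.map_injective_of_injective (f := (Matrix.toLin' (R := F) (m := Fin n) (n := Fin n)).toLinearMap)
    Matrix.toLin'.injective ?_
  rw [Submodule.map_top, LinearEquiv.range]
  exact h1

variable [Fintype F]

theorem Good.mono {H K : Subgroup (GL (Fin n) F)} (h : Good K) (hle : H ≤ K) : Good H := by
  obtain ⟨M, hM, hKM⟩ := h
  exact ⟨M, hM, hle.trans hKM⟩

theorem irr_or_good (hn : 0 < n) (K : Subgroup (GL (Fin n) F)) :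
    Good K ∨ Irr ((fun g : (Module.End F (Fin n → F))ˣ => (g : Module.End F (Fin n → F))) '' (gu '' (K : Set _))) := by
  classical
  rw [or_iff_not_imp_left]
  intro hno W hW
  by_contra h
  push_neg at h
  refine hno ⟨subspaceStabilizer W, Or.inl ⟨W, h.1, h.2, rfl⟩, fun g hg => ?_⟩
  have key : ∀ g ∈ K, ∀ w ∈ W, (g : Matrix (Fin n) (Fin n) F) *ᵥ w ∈ W := fun g hg w hw => by
    have := hW _ ⟨gu g, ⟨g, hg, rfl⟩, rfl⟩ w hw
    rwa [gu_apply] at this
  intro v
  refine ⟨key g hg v, fun hv => ?_⟩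
  have := key g⁻¹ (inv_mem hg) _ hv
  rwa [show (glToMat (Fin n) F g) = (g : Matrix (Fin n) (Fin n) F) from rfl, Matrix.mulVec_mulVec, ← Units.val_mul,
    inv_mul_cancel, Units.val_one, Matrix.one_mulVec] at this

/-- A normal subgroup outside the scalars spans the matrix algebra. -/
theorem normal_or_good (hn : 3 ≤ n) {K N : Subgroup (GL (Fin n) F)}
    (hirr : Irr ((fun g : (Module.End F (Fin n → F))ˣ => (g : Module.End F (Fin n → F))) '' (gu '' (K : Set _))))
    (hN : NormalisedBy K N) (hns : ¬ N ≤ scalars (Fin n) F) : Good K ∨ Full N := by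
  classical
  haveI : Nonempty (Fin n) := ⟨⟨0, by omega⟩⟩
  set S : Set (Module.End F (Fin n → F))ˣ := gu '' (K : Set _) with hSdef
  set A := env N with hA
  have hSA : ∀ u ∈ S, Normalises A u := by rintro _ ⟨g, hg, rfl⟩; exact normalises_env hN hg
  have hcomm : ∀ x ∈ centre A, ∀ y ∈ centre A, x * y = y * x := fun x hx y hy => centre_comm hx hy
  rcases decomp_or_field hcomm (fun u hu => normalises_centre (hSA u hu)) hirr with
    ⟨t, m, D, ht, hm, hfr, hind, htop, hperm⟩ | hinv
  · left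
    have hD : IsMDecomposition m D := ⟨ht, hm, hfr, hind, htop⟩
    refine ⟨decompositionStabilizer D, Or.inr <| Or.inr <| Or.inr <| Or.inl ⟨t, m, D, hD, rfl⟩, fun g hg => ?_⟩
    refine mem_decomp_of_forall hD ?_
    rcases hperm (gu g) (normalises_centre (hSA _ ⟨g, hg, rfl⟩)) with h | h
    · intro i; obtain ⟨j, hj⟩ := h i; exact ⟨j, fun x hx => by rw [← gu_apply]; exact hj x hx⟩
    · exact absurd ⟨g, hg, rfl⟩ h
  by_cases hbig : ∃ x ∈ centre A, ∀ c : F, x ≠ algebraMap F _ c
  · left
    obtain ⟨r, L, hr, hLE, hfin, hLinv, hLN⟩ := exists_prime_subfield hcomm hinv hbig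
    let Φ : Module.End F (Fin n → F) ≃ₐ[F] Matrix (Fin n) (Fin n) F := LinearMap.toMatrixAlgEquiv'
    let L' : Subalgebra F (Matrix (Fin n) (Fin n) F) := L.map Φ.toAlgHom
    have hmem : ∀ x, x ∈ L' ↔ Φ.symm x ∈ L := fun x =>
      ⟨by rintro ⟨y, hy, rfl⟩; simpa using hy, fun h => ⟨_, h, Φ.apply_symm_apply x⟩⟩
    have hfield : IsFieldSubalgebra r L' := by
      refine ⟨fun x hx y hy => ?_, fun x hx hx0 => ?_, ?_⟩
      · apply Φ.symm.injective
        rw [map_mul, map_mul]
        exact hcomm _ (hLE ((hmem x).mp hx)) _ (hLE ((hmem y).mp hy))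
      · obtain ⟨y, hy, hxy⟩ := hLinv _ ((hmem x).mp hx) (by simpa using hx0)
        refine ⟨Φ y, (hmem _).mpr (by simpa using hy), Φ.symm.injective ?_⟩
        simpa using hxy
      · rw [← hfin]
        exact (L.equivMapOfInjective Φ.toAlgHom Φ.injective).toLinearEquiv.finrank_eq.symm
    refine ⟨subalgebraNormalizer L', ?_, fun g hg k => ?_⟩
    · iterate 4 right
      exact Or.inl ⟨r, L', hr, hfield, rfl⟩
    · rw [hmem, hmem, hLN (gu g) (normalises_centre (hSA _ ⟨g, hg, rfl⟩)), map_mul, map_mul, ← map_inv]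
      rfl
  push_neg at hbig
  have hE : ∀ X : Module.End F (Fin n → F), (∀ a ∈ A, Commute X a) →
      (∀ Y, (∀ a ∈ A, Commute Y a) → Commute X Y) → ∃ c : F, X = algebraMap F _ c :=
    fun X h1 h2 => hbig X (mem_centre.mpr ⟨h1, h2⟩)
  haveI := isSemisimple A S hSA hirr
  obtain ⟨d, e, φA, φC, hd, he, hrange, hAC, hde, hirr2⟩ := central_type A hE
  rw [Module.finrank_fin_fun] at hde
  have hrA : Set.range φA = (A : Set _) := by rw [← hrange]; rfl
  rcases (show d = 1 ∨ 2 ≤ d by omega) with rfl | hd2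
  · refine absurd (fun x hx => ?_) hns
    obtain ⟨X, hX⟩ : (gu x : Module.End F (Fin n → F)) ∈ Set.range φA := hrA ▸ mem_env hx
    refine mem_scalars_of_op (c := X 0 0) ?_
    rw [← hX, ← φA.commutes]
    congr 1
    ext i j
    rw [Subsingleton.elim i 0, Subsingleton.elim j 0]
    simp [Matrix.algebraMap_matrix_apply]
  rcases (show e = 1 ∨ 2 ≤ e by omega) with rfl | he2
  · right
    refine op_span_eq_top (Algebra.eq_top_iff.mpr fun X => ?_)
    haveI : Nonempty (Fin d) := ⟨⟨0, hd⟩⟩
    have hinj : Function.Injective φA := RingHom.injective φA.toRingHom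
    have hfr : Module.finrank F (Matrix (Fin d) (Fin d) F) = Module.finrank F (Module.End F (Fin n → F)) := by
      rw [Module.finrank_matrix, Module.finrank_linearMap, Module.finrank_fin_fun, Fintype.card_fin, Module.finrank_self]
      rw [mul_one] at hde
      rw [hde, mul_one]
    obtain ⟨Y, hY⟩ := (LinearMap.injective_iff_surjective_of_finrank_eq_finrank hfr (f := φA.toLinearMap)).mp hinj X
    rw [← hY]
    exact hrA.subset ⟨Y, rfl⟩
  left
  have hC : ∀ Y : Module.End F (Fin n → F), (∀ a ∈ A, Commute Y a) → Y ∈ Set.range φC := by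
    intro Y hY
    let dd : Fin 2 → ℕ := ![d, e]
    let φ : ∀ i, Matrix (Fin (dd i)) (Fin (dd i)) F →ₐ[F] Module.End F (Fin n → F) :=
      Fin.cons (α := fun i => Matrix (Fin (dd i)) (Fin (dd i)) F →ₐ[F] Module.End F (Fin n → F)) φA
        (Fin.cons φC finZeroElim)
    refine mem_range_of_commute φ ?_ ?_ ?_ 1 ?_
    · intro i j h
      revert h
      revert i j
      simp only [Fin.forall_fin_two]
      exact ⟨⟨fun h => absurd rfl h, fun _ X Y => hAC X Y⟩, ⟨fun _ X Y => (hAC Y X).symm, fun h => absurd rfl h⟩⟩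
    · rw [Fin.forall_fin_two]; exact ⟨hd, he⟩
    · exact fun W hW => hirr2 W fun s hs => hW s <| Set.mem_iUnion.mpr <| by
        rcases hs with hs | hs
        · exact ⟨0, hs⟩
        · exact ⟨1, hs⟩
    · rw [Fin.forall_fin_two]
      exact ⟨fun _ X => hY _ (hrA.subset ⟨X, rfl⟩), fun h => absurd rfl h⟩
  have hfA : ∀ g ∈ K, ∀ X, (gu g : Module.End F (Fin n → F)) * φA X * ((gu g)⁻¹).val ∈ Set.range φA := by
    intro g hg X
    rw [hrA]
    exact (normalises_env hN hg _).mp (hrA.subset ⟨X, rfl⟩)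
  have hfC : ∀ g ∈ K, ∀ X, (gu g : Module.End F (Fin n → F)) * φC X * ((gu g)⁻¹).val ∈ Set.range φC := by
    intro g hg X
    refine hC _ (normalises_centraliser (normalises_env hN hg) fun a ha => ?_)
    obtain ⟨Y, rfl⟩ : a ∈ Set.range φA := hrA ▸ ha
    exact (hAC Y X).symm
  rcases lt_trichotomy d e with h | h | h
  · exact good_pair hd2 h φA φC hAC hirr2 hfA hfC
  · subst h
    refine good_power hn hd2 le_rfl ![φA, φC] ?_ ?_ fun g hg => ⟨1, ?_⟩
    · intro i j h
      revert h
      revert i j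
      simp only [Fin.forall_fin_two]
      exact ⟨⟨fun h => absurd rfl h, fun _ X Y => hAC X Y⟩, ⟨fun _ X Y => (hAC Y X).symm, fun h => absurd rfl h⟩⟩
    · exact fun W hW => hirr2 W fun s hs => hW s <| Set.mem_iUnion.mpr <| by
        rcases hs with hs | hs
        · exact ⟨0, hs⟩
        · exact ⟨1, hs⟩
    · rw [Fin.forall_fin_two]; exact ⟨hfA g hg, hfC g hg⟩
  · exact good_pair he2 h φC φA (fun X Y => (hAC Y X).symm) (by rwa [Set.union_comm]) hfC hfA

end Cfsg.Agent.GeomClasses.Asch
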