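import Cfsg.Agent.GeomClasses.Aschbacher.Nonabelian

/-! # Groups with scalar commutators -/

set_option autoImplicit false
set_option maxHeartbeats 400000

namespace Cfsg.Agent.GeomClasses.Asch

open Matrix Cfsg.Geo
open scoped commutatorElement

variable {F : Type*} [Field F] {n : ℕ}

/-- The scalar matrix of a unit. -/
def sc : Fˣ →* GL (Fin n) F :=
  Units.map (Matrix.scalar (Fin n) : F →+* Matrix (Fin n) (Fin n) F).toMonoidHom

theorem sc_mem (u : Fˣ) : (sc u : GL (Fin n) F) ∈ scalars (Fin n) F := ⟨u, rfl⟩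

theorem exists_sc {g : GL (Fin n) F} (h : g ∈ scalars (Fin n) F) : ∃ u : Fˣ, sc u = g := h

theorem sc_val (u : Fˣ) : ((sc u : GL (Fin n) F) : Matrix (Fin n) (Fin n) F) = (u : F) • 1 :=
  (Matrix.smul_one_eq_diagonal (u : F)).symm

theorem sc_injective [Nonempty (Fin n)] : Function.Injective (sc : Fˣ → GL (Fin n) F) := fun _ _ h =>
  Units.ext (Matrix.scalar_inj.mp (congrArg Units.val h))

theorem sc_comm (u : Fˣ) (g : GL (Fin n) F) : sc u * g = g * sc u := scalars_comm (sc_mem u) g

theorem sc_mul_val (u : Fˣ) (g : GL (Fin n) F) :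
    ((sc u * g : GL (Fin n) F) : Matrix (Fin n) (Fin n) F) = (u : F) • (g : Matrix (Fin n) (Fin n) F) := by
  rw [Units.val_mul, sc_val, Matrix.smul_mul, one_mul]

theorem exists_twist {x y : GL (Fin n) F} (h : ⁅x, y⁆ ∈ scalars (Fin n) F) :
    ∃ c : Fˣ, x * y = sc c * (y * x) := by
  obtain ⟨c, hc⟩ := exists_sc h
  exact ⟨c, by rw [hc, commutatorElement_def]; group⟩

theorem pow_twist {x y : GL (Fin n) F} {c : Fˣ} (h : x * y = sc c * (y * x)) (k : ℕ) :
    x ^ k * y = sc (c ^ k) * (y * x ^ k) := by
  induction k with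
  | zero => simp
  | succ k ih =>
    rw [pow_succ, mul_assoc, h, ← mul_assoc (x ^ k), ← sc_comm, mul_assoc (sc c), ← mul_assoc (x ^ k),
      ih, pow_succ', map_mul]
    simp only [mul_assoc]

theorem mul_pow_twist {x y : GL (Fin n) F} {c : Fˣ} (h : y * x = sc c * (x * y)) (k : ℕ) :
    (x * y) ^ k = sc (c ^ k.choose 2) * (x ^ k * y ^ k) := by
  induction k with
  | zero => simp
  | succ k ih =>
    have e : y ^ k * x = sc (c ^ k) * (x * y ^ k) := pow_twist h k
    rw [pow_succ, ih, Nat.choose_succ_succ', Nat.choose_one_right, pow_add, map_mul]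
    calc sc (c ^ k.choose 2) * (x ^ k * y ^ k) * (x * y) = sc (c ^ k.choose 2) * x ^ k * (y ^ k * x) * y := by
          simp only [mul_assoc]
      _ = sc (c ^ k.choose 2) * (x ^ k * sc (c ^ k)) * (x * y ^ k) * y := by rw [e]; simp only [mul_assoc]
      _ = sc (c ^ k.choose 2) * sc (c ^ k) * (x ^ k * (x * y ^ k) * y) := by
          rw [← sc_comm]; simp only [mul_assoc]
      _ = _ := by
          rw [← map_mul, ← map_mul, mul_comm (c ^ k.choose 2), pow_succ, pow_succ]
          simp only [mul_assoc]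

theorem li_of_chars {J ι W : Type*} [Finite ι] [AddCommGroup W] [Module F W] (L : J → W →ₗ[F] W) (w : ι → W)
    (χ : ι → J → F) (h : ∀ i j, L j (w i) = χ i j • w i) (hw : ∀ i, w i ≠ 0) (hχ : Function.Injective χ) :
    LinearIndependent F w := by
  classical
  haveI := Fintype.ofFinite ι
  rw [Fintype.linearIndependent_iff]
  suffices key : ∀ (s : Finset ι) (g : ι → F), ∑ i ∈ s, g i • w i = 0 → ∀ i ∈ s, g i = 0 from
    fun g hg i => key Finset.univ g hg i (Finset.mem_univ i)
  intro s
  induction s using Finset.induction_on with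
  | empty => intro g _ i hi; exact absurd hi (Finset.notMem_empty i)
  | insert a s ha ih =>
    intro g hg
    rw [Finset.sum_insert ha] at hg
    have hs : ∀ i ∈ s, g i = 0 := by
      intro i hi
      obtain ⟨j, hj⟩ := Function.ne_iff.mp (hχ.ne (show i ≠ a from fun e => ha (e ▸ hi)))
      have hz : ∑ k ∈ s, (g k * (χ k j - χ a j)) • w k = 0 := by
        have e1 : L j (g a • w a + ∑ k ∈ s, g k • w k) = 0 := by rw [hg, map_zero]
        rw [map_add, map_smul, h, map_sum] at e1
        simp only [map_smul, h] at e1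
        have e2 : χ a j • (g a • w a + ∑ k ∈ s, g k • w k) = 0 := by rw [hg, smul_zero]
        rw [smul_add, Finset.smul_sum] at e2
        have := congrArg₂ (· - ·) e1 e2
        simp only [smul_smul, sub_zero, mul_comm (χ a j), add_sub_add_left_eq_sub, ← Finset.sum_sub_distrib,
          ← sub_smul, ← mul_sub] at this
        exact this
      exact (mul_eq_zero.mp (ih _ hz i hi)).resolve_right (sub_ne_zero.mpr hj)
    intro i hi
    rcases Finset.mem_insert.mp hi with rfl | hi
    · rw [Finset.sum_eq_zero (fun k hk => by rw [hs k hk, zero_smul]), add_zero] at hg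
      exact (smul_eq_zero.mp hg).resolve_right (hw _)
    · exact hs i hi

end Cfsg.Agent.GeomClasses.Asch
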