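import Cfsg.Agent.GeomClasses.Aschbacher.SympType

/-! # Order and forms of the symplectic-type group -/

set_option autoImplicit false
set_option maxHeartbeats 400000

namespace Cfsg.Agent.GeomClasses.Asch

open Matrix Cfsg.Geo
open scoped commutatorElement

variable {F : Type*} [Field F] [Fintype F] {n : ℕ} {r : ℕ} {K R : Subgroup (GL (Fin n) F)}

theorem STData.center_iff (h : STData K r R) [Nonempty (Fin n)] (a : R) :
    a ∈ Subgroup.center R ↔ (a : GL (Fin n) F) ∈ scalars (Fin n) F := by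
  rw [Subgroup.mem_center_iff]
  constructor
  · intro hc
    obtain ⟨c, hc'⟩ := h.full.comm_scalar (M := ((a : GL (Fin n) F) : Matrix (Fin n) (Fin n) F)) fun x hx => by
      rw [← Units.val_mul, ← Units.val_mul]
      exact congrArg Units.val (congrArg Subtype.val (hc ⟨x, hx⟩)).symm
    exact (mem_scalars_iff _).mpr ⟨Units.mk0 c fun h0 => (a : GL (Fin n) F).ne_zero (by rw [hc', h0, zero_smul]), hc'⟩
  · exact fun ha g => Subtype.ext (scalars_comm ha g).symm

theorem STData.card_center (h : STData K r R) [Nonempty (Fin n)] :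
    Nat.card (Subgroup.center R) = (Fintype.card F - 1).gcd (r * Nat.gcd 2 r) := by
  classical
  rw [← Fintype.card_units, ← Nat.card_eq_fintype_card, ← IsCyclic.card_powMonoidHom_ker (G := Fˣ)]
  symm
  let φ : (powMonoidHom (r * Nat.gcd 2 r) : Fˣ →* Fˣ).ker → Subgroup.center R := fun u =>
    ⟨⟨sc u.1, h.scal u.1 u.2⟩, (h.center_iff _).mpr (sc_mem u.1)⟩
  refine Nat.card_eq_of_bijective φ ⟨fun a b hab => ?_, fun a => ?_⟩
  · exact Subtype.ext (sc_injective (n := n) (congrArg (fun w : Subgroup.center R => ((w : R) : GL (Fin n) F)) hab))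
  · obtain ⟨u, hu⟩ := exists_sc ((h.center_iff a.1).mp a.2)
    refine ⟨⟨u, sc_injective (n := n) ?_⟩, Subtype.ext (Subtype.ext hu)⟩
    show sc (u ^ (r * Nat.gcd 2 r)) = sc 1
    rw [map_pow, map_one, hu]
    exact h.pow _ (a : R).2

theorem conj_val (y : GL (Fin n) F) {a : GL (Fin n) F} {c : Fˣ} (h : y * a = sc c * (a * y)) :
    (y : Matrix (Fin n) (Fin n) F) * (a : Matrix (Fin n) (Fin n) F) * (y⁻¹ : GL (Fin n) F).val =
      (c : F) • (a : Matrix (Fin n) (Fin n) F) := by
  rw [← Units.val_mul, ← Units.val_mul, h, mul_assoc, mul_assoc, mul_inv_cancel, mul_one, sc_mul_val]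

theorem STData.card (h : STData K r R) (hn : 3 ≤ n) :
    ∃ m, 1 ≤ m ∧ n = r ^ m ∧ Nat.card R = Nat.card (Subgroup.center R) * r ^ (2 * m) := by
  classical
  haveI : Nonempty (Fin n) := ⟨⟨0, by omega⟩⟩
  have hsymp := h.symplecticType h.norm
  choose c hc using fun (a b : R) => exists_twist (h.twist a a.2 b b.2)
  let Q := R ⧸ Subgroup.center R
  let w : Q → Matrix (Fin n) (Fin n) F := fun q => ((q.out : R) : GL (Fin n) F).val
  let L : R → (Matrix (Fin n) (Fin n) F →ₗ[F] Matrix (Fin n) (Fin n) F) := fun y =>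
    (LinearMap.mulLeft F (y : GL (Fin n) F).val).comp (LinearMap.mulRight F ((y : GL (Fin n) F)⁻¹).val)
  have hL : ∀ (q : Q) (y : R), L y (w q) = (c y q.out : F) • w q := by
    intro q y
    show (y : GL (Fin n) F).val * (((q.out : R) : GL (Fin n) F).val * ((y : GL (Fin n) F)⁻¹).val) = _
    rw [← mul_assoc, conj_val _ (hc y q.out)]
  have hχ : Function.Injective fun (q : Q) (y : R) => (c y q.out : F) := by
    intro q q' hqq
    rw [← QuotientGroup.out_eq' q, ← QuotientGroup.out_eq' q', QuotientGroup.eq, h.center_iff]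
    obtain ⟨d, hd⟩ := h.full.comm_scalar (M := ((((q.out)⁻¹ * q'.out : R) : GL (Fin n) F) : Matrix (Fin n) (Fin n) F))
      fun y hy => by
        have h1 := hc ⟨y, hy⟩ q.out
        have h2 := hc ⟨y, hy⟩ q'.out
        rw [show c ⟨y, hy⟩ q'.out = c ⟨y, hy⟩ q.out from Units.ext (congrFun hqq ⟨y, hy⟩).symm] at h2
        rw [← Units.val_mul, ← Units.val_mul]
        refine congrArg Units.val ?_
        show (((q.out : R) : GL (Fin n) F))⁻¹ * (q'.out : R) * y = y * (((q.out : R) : GL (Fin n) F)⁻¹ * (q'.out : R))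
        set a : GL (Fin n) F := ((q.out : R) : GL (Fin n) F)
        set b : GL (Fin n) F := ((q'.out : R) : GL (Fin n) F)
        set u := c ⟨y, hy⟩ q.out
        have e1 : y * a⁻¹ = sc u⁻¹ * (a⁻¹ * y) := by
          have : a⁻¹ * (y * a) * a⁻¹ = a⁻¹ * (sc u * (a * y)) * a⁻¹ := by rw [h1]
          rw [← mul_assoc a⁻¹ (sc u), ← sc_comm] at this
          have e : a⁻¹ * y = sc u * (y * a⁻¹) := by
            calc a⁻¹ * y = a⁻¹ * (y * a) * a⁻¹ := by group
              _ = sc u * a⁻¹ * (a * y) * a⁻¹ := this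
              _ = _ := by group
          rw [e, ← mul_assoc, ← map_mul, inv_mul_cancel, map_one, one_mul]
        calc a⁻¹ * b * y = sc u⁻¹ * (a⁻¹ * (y * b)) := by
              rw [h2, ← mul_assoc a⁻¹ (sc u), ← sc_comm, ← mul_assoc (sc u⁻¹), ← mul_assoc (sc u⁻¹), ← map_mul,
                inv_mul_cancel, map_one, one_mul, mul_assoc]
          _ = y * a⁻¹ * b := by rw [e1]; simp only [mul_assoc]
          _ = _ := mul_assoc _ _ _
    exact (mem_scalars_iff _).mpr ⟨Units.mk0 d fun h0 => (((q.out)⁻¹ * q'.out : R) : GL (Fin n) F).ne_zero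
      (by rw [hd, h0, zero_smul]), hd⟩
  have hli := li_of_chars L w _ hL (fun q => Units.ne_zero ((q.out : R).1)) hχ
  have hsp : Submodule.span F (Set.range w) = ⊤ := by
    refine eq_top_iff.mpr (h.full ▸ Submodule.span_le.mpr ?_)
    rintro _ ⟨x, hx, rfl⟩
    set a : R := ⟨x, hx⟩
    set q : Q := QuotientGroup.mk a
    have hm : q.out⁻¹ * a ∈ Subgroup.center R := QuotientGroup.eq.mp (QuotientGroup.out_eq' q)
    obtain ⟨u, hu⟩ := exists_sc ((h.center_iff _).mp hm)
    have e : x = sc u * ((q.out : R) : GL (Fin n) F) := by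
      rw [hu, scalars_comm ((h.center_iff _).mp hm)]
      show x = _ * (((q.out : R) : GL (Fin n) F)⁻¹ * x)
      group
    show x.val ∈ _
    rw [e, sc_mul_val]
    exact Submodule.smul_mem _ _ (Submodule.subset_span ⟨q, rfl⟩)
  haveI : Fintype Q := Fintype.ofFinite _
  have hcard : Nat.card Q = n * n := by
    rw [Nat.card_eq_fintype_card, ← Module.finrank_eq_card_basis (Module.Basis.mk hli hsp.ge), Module.finrank_matrix]
    simp
  haveI : Fact r.Prime := ⟨h.prime⟩
  obtain ⟨k, hk⟩ := IsPGroup.iff_card.mp (hsymp.pGroup.to_quotient (Subgroup.center R))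
  obtain ⟨m, -, hm⟩ := (Nat.dvd_prime_pow h.prime).mp (show n ∣ r ^ k by rw [← hk]; exact hcard ▸ dvd_mul_right n n)
  refine ⟨m, ?_, hm, ?_⟩
  · by_contra h0
    rw [show m = 0 by omega, pow_zero] at hm
    omega
  · have hnn : n * n = r ^ (2 * m) := by
      rw [two_mul, pow_add]; exact congrArg₂ (· * ·) hm hm
    rw [Subgroup.card_eq_card_quotient_mul_card_subgroup (Subgroup.center R), hcard, hnn, mul_comm]

theorem STData.trace_eq_zero (h : STData K r R) [Nonempty (Fin n)] {x : GL (Fin n) F} (hx : x ∈ R)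
    (hxZ : x ∉ scalars (Fin n) F) : (x : Matrix (Fin n) (Fin n) F).trace = 0 := by
  obtain ⟨y, hy, hxy⟩ : ∃ y ∈ R, y * x ≠ x * y := by
    by_contra hh
    push_neg at hh
    exact hxZ ((h.center_iff ⟨x, hx⟩).mp (Subgroup.mem_center_iff.mpr fun g => Subtype.ext (hh g g.2)))
  obtain ⟨c, hc⟩ := exists_twist (h.twist y hy x hx)
  have hc1 : (c : F) - 1 ≠ 0 := fun h0 => hxy (by
    rw [hc, show c = 1 from Units.ext (sub_eq_zero.mp h0), map_one, one_mul])
  have e := congrArg Matrix.trace (conj_val y hc)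
  rw [Matrix.trace_smul, Matrix.trace_mul_cycle, ← Units.val_mul, inv_mul_cancel, Units.val_one, one_mul,
    smul_eq_mul] at e
  have : ((c : F) - 1) * (x : Matrix (Fin n) (Fin n) F).trace = 0 := by rw [sub_mul, one_mul, ← e, sub_self]
  exact (mul_eq_zero.mp this).resolve_left hc1

/-- Without fourth roots of unity the group fixes a bilinear form. -/
theorem STData.good_average (h : STData K 2 R) (hn : 3 ≤ n) (h4 : ¬ 4 ∣ Fintype.card F - 1) : Good K := by
  classical
  haveI : Nonempty (Fin n) := ⟨⟨0, by omega⟩⟩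
  have h2 : (2 : F) ≠ 0 := by exact_mod_cast h.ne_zero
  haveI : Fintype R := Fintype.ofFinite _
  let V : R → Matrix (Fin n) (Fin n) F := fun x => ((x : GL (Fin n) F) : Matrix (Fin n) (Fin n) F)
  let S : Matrix (Fin n) (Fin n) F → Matrix (Fin n) (Fin n) F := fun C => ∑ x : R, (V x)ᵀ * C * V x
  have hfix : ∀ C, ∀ y ∈ R, (y : Matrix (Fin n) (Fin n) F)ᵀ * S C * (y : Matrix (Fin n) (Fin n) F).map
      (RingEquiv.refl F) = S C := by
    intro C y hy
    rw [show (y : Matrix (Fin n) (Fin n) F).map (RingEquiv.refl F) = (y : Matrix (Fin n) (Fin n) F) by ext i j; rfl]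
    simp only [S, Finset.mul_sum, Finset.sum_mul]
    refine Fintype.sum_equiv (Equiv.mulRight (⟨y, hy⟩ : R)) _ _ fun x => ?_
    simp only [V, Equiv.coe_mulRight, Subgroup.coe_mul, Units.val_mul, Matrix.transpose_mul, mul_assoc]
  have hne : ∃ i j, S (Matrix.single i j 1) ≠ 0 := by
    by_contra hh
    push_neg at hh
    have h0 : ∑ i, ∑ j, S (Matrix.single i j 1) i j = 0 := by simp [hh]
    have h1 : ∑ i, ∑ j, S (Matrix.single i j 1) i j = ∑ x : R, (V x).trace * (V x).trace := by
      simp only [Matrix.trace, Matrix.diag, Finset.sum_mul_sum]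
      conv_rhs => rw [Finset.sum_comm]
      refine Finset.sum_congr rfl fun i _ => ?_
      conv_rhs => rw [Finset.sum_comm]
      refine Finset.sum_congr rfl fun j _ => ?_
      simp only [S, Matrix.sum_apply]
      refine Finset.sum_congr rfl fun x _ => ?_
      rw [mul_assoc, Matrix.mul_apply, Finset.sum_eq_single i, Matrix.mul_apply, Finset.sum_eq_single j]
      · simp
      · intro k _ hk; simp [Matrix.single_apply, Ne.symm hk]
      · simp
      · intro k _ hk; rw [Matrix.mul_apply, Finset.sum_eq_zero (fun l _ => by simp [Matrix.single_apply, Ne.symm hk]), mul_zero]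
      · simp
    have h3 : ∀ x : R, x ∈ Subgroup.center R → (V x).trace * (V x).trace = (n : F) * n := by
      intro x hx
      obtain ⟨u, hu⟩ := exists_sc ((h.center_iff x).mp hx)
      have hu4 : u ^ 4 = 1 := sc_injective (n := n) (by
        rw [map_pow, map_one, hu]; exact h.pow x x.2)
      have hu2 : u ^ 2 = 1 := by
        have hd : orderOf u ∣ Nat.gcd 4 (Fintype.card F - 1) := Nat.dvd_gcd (orderOf_dvd_of_pow_eq_one hu4)
          (by rw [← Fintype.card_units]; exact orderOf_dvd_card)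
        obtain ⟨k, hk, hg⟩ := (Nat.dvd_prime_pow Nat.prime_two (m := 2)).mp
          (show Nat.gcd 4 (Fintype.card F - 1) ∣ 2 ^ 2 from Nat.gcd_dvd_left _ _)
        have hk2 : k ≠ 2 := fun h2 => h4 (by rw [show (4 : ℕ) = 2 ^ k by rw [h2]; norm_num, ← hg]; exact Nat.gcd_dvd_right _ _)
        exact orderOf_dvd_iff_pow_eq_one.mp ((hd.trans hg.dvd).trans (by
          rcases (show k = 0 ∨ k = 1 by omega) with rfl | rfl <;> norm_num))
      show (((x : R) : GL (Fin n) F) : Matrix (Fin n) (Fin n) F).trace * _ = _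
      rw [← hu, sc_val]
      simp only [V, ← hu, sc_val, Matrix.trace_smul, Matrix.trace_one, Fintype.card_fin, smul_eq_mul]
      have : (u : F) * u = 1 := by rw [← pow_two, ← Units.val_pow_eq_pow_val, hu2, Units.val_one]
      linear_combination (n : F) * n * this
    have h5 : ∑ x : R, (V x).trace * (V x).trace = (Nat.card (Subgroup.center R) : F) * ((n : F) * n) := by
      rw [← Finset.sum_subset (Finset.subset_univ (Finset.univ.filter fun x : R => x ∈ Subgroup.center R))
        (fun x _ hx => by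
          rw [h.trace_eq_zero x.2 (fun hz => hx (by simp [(h.center_iff x).mpr hz])), mul_zero]),
        Finset.sum_congr rfl (fun x hx => h3 x (Finset.mem_filter.mp hx).2), Finset.sum_const, nsmul_eq_mul]
      congr 2
      rw [← Fintype.card_subtype, Nat.card_eq_fintype_card]
    obtain ⟨m, hm1, hm, -⟩ := h.card hn
    rw [h1, h5, h.card_center, hm] at h0
    obtain ⟨k, hk, hg⟩ := (Nat.dvd_prime_pow Nat.prime_two (m := 2)).mp
      (show (Fintype.card F - 1).gcd (2 * Nat.gcd 2 2) ∣ 2 ^ 2 from Nat.gcd_dvd_right _ _)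
    rw [hg] at h0
    push_cast at h0
    exact (mul_ne_zero (pow_ne_zero _ h2) (mul_ne_zero (pow_ne_zero _ h2) (pow_ne_zero _ h2))) h0
  obtain ⟨i, j, hB0⟩ := hne
  set B := S (Matrix.single i j 1) with hBdef
  have hBf := hfix (Matrix.single i j 1)
  rw [← hBdef] at hBf
  have hmap : ∀ y : GL (Fin n) F, (y : Matrix (Fin n) (Fin n) F).map (RingEquiv.refl F) =
      (y : Matrix (Fin n) (Fin n) F) := fun y => by ext i j; rfl
  have hB : IsUnit B.det := by
    refine isUnit_iff_ne_zero.mpr fun h0 => hB0 ?_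
    let W : Submodule F (Fin n → F) := LinearMap.ker (Matrix.toLin' B)
    rcases h.full.absIrred.1 W (by
      rintro _ ⟨x, hx, rfl⟩ _ ⟨w, hw, rfl⟩
      simp only [W, SetLike.mem_coe, LinearMap.mem_ker, Matrix.toLin'_apply] at hw ⊢
      have hu : IsUnit (x : Matrix (Fin n) (Fin n) F)ᵀ.det := by
        rw [Matrix.det_transpose]; exact (Matrix.isUnit_iff_isUnit_det _).mp x.isUnit
      have e : B * (x : Matrix (Fin n) (Fin n) F) = (x : Matrix (Fin n) (Fin n) F)ᵀ⁻¹ * B := by
        conv_rhs => rw [← hBf x hx, hmap]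
        rw [← mul_assoc, ← mul_assoc, Matrix.nonsing_inv_mul _ hu, one_mul]
      rw [Matrix.mulVec_mulVec, e, ← Matrix.mulVec_mulVec, hw, Matrix.mulVec_zero]) with hW | hW
    · exfalso
      obtain ⟨v, hv, hBv⟩ := Matrix.exists_mulVec_eq_zero_iff.mpr h0
      exact hv ((Submodule.mem_bot F).mp (hW ▸ (show v ∈ W by simp [W, hBv])))
    · refine Matrix.toLin'.injective ?_
      rw [map_zero]
      exact LinearMap.ext fun v => show Matrix.toLin' B v = 0 from LinearMap.mem_ker.mp (show v ∈ W by rw [hW]; trivial)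
  have hsim : ∀ g ∈ K, ∃ c : Fˣ, (g : Matrix (Fin n) (Fin n) F)ᵀ * B * (g : Matrix (Fin n) (Fin n) F).map
      (RingEquiv.refl F) = (c : F) • B := fun g hg => sim_of_fix h.full hB hBf (h.norm g hg)
  obtain ⟨c, hc⟩ := similar_of_normalises h.full (RingEquiv.refl F) hB hBf (C := Bᵀ) fun x hx => by
    rw [hmap]
    have := congrArg Matrix.transpose (hBf x hx)
    rw [hmap, Matrix.transpose_mul, Matrix.transpose_mul, Matrix.transpose_transpose, ← mul_assoc] at this
    exact this
  have hcc : (c * c - 1) • B = 0 := by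
    have := congrArg Matrix.transpose hc
    rw [Matrix.transpose_transpose, Matrix.transpose_smul, hc, smul_smul] at this
    rw [sub_smul, one_smul, ← this, sub_self]
  rcases smul_eq_zero.mp hcc with h0 | h0
  swap
  · exact absurd h0 hB0
  rcases mul_self_eq_one_iff.mp (sub_eq_zero.mp h0) with h1 | h1
  · exact good_of_symm hn h2 hB (by rw [hc, h1, one_smul]) hsim
  · refine good_of_alt hn hB (by rw [hc, h1, neg_one_smul]) (fun k => ?_) hsim
    have := congrFun (congrFun hc k) k
    rw [h1, neg_one_smul, Matrix.transpose_apply, Matrix.neg_apply] at this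
    have : (2 : F) * B k k = 0 := by linear_combination this
    exact (mul_eq_zero.mp this).resolve_left h2

end Cfsg.Agent.GeomClasses.Asch
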