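import Cfsg.Agent.GeomClasses.Aschbacher.Twist

/-! # The symplectic-type group of a minimal abelian normal section -/

set_option autoImplicit false
set_option maxHeartbeats 400000

namespace Cfsg.Agent.GeomClasses.Asch

open Matrix Cfsg.Geo
open scoped commutatorElement

variable {F : Type*} [Field F] [Fintype F] {n : ℕ}

local notation "Zs" => scalars (Fin n) F

/-- What the abelian case produces. -/
structure STData (K : Subgroup (GL (Fin n) F)) (r : ℕ) (R : Subgroup (GL (Fin n) F)) : Prop where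
  prime : r.Prime
  norm : NormalisedBy K R
  full : Full R
  pow : ∀ x ∈ R, x ^ (r * Nat.gcd 2 r) = 1
  scal : ∀ u : Fˣ, u ^ (r * Nat.gcd 2 r) = 1 → sc u ∈ R
  twist : ∀ a ∈ R, ∀ b ∈ R, ⁅a, b⁆ ∈ Zs
  nonab : ∃ a ∈ R, ∃ b ∈ R, a * b ≠ b * a
  dvd : r ∣ Fintype.card F - 1
  ne_zero : (r : F) ≠ 0
  maxab : ∀ A : Subgroup (GL (Fin n) F), A ≤ R → NormalisedBy K A → (∀ a ∈ A, ∀ b ∈ A, a * b = b * a) → A ≤ Zs

theorem not_scalar_pair {x y : GL (Fin n) F} (hxy : x * y ≠ y * x) (k : ℕ) : x ^ k * y ∉ Zs := by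
  intro h
  obtain ⟨s, hs⟩ := exists_sc h
  refine hxy ?_
  have e : y = (x ^ k)⁻¹ * sc s := by rw [hs, inv_mul_cancel_left]
  have hc : Commute x ((x ^ k)⁻¹ * sc s) := ((Commute.self_pow x k).inv_right).mul_right (sc_comm s x).symm
  rw [e]; exact hc.eq

theorem root_or_pow {r : ℕ} (hr : r.Prime) (a b : Fˣ) :
    (∃ u, a = u ^ r) ∨ ∃ (j : ℕ) (u : Fˣ), b = a ^ j * u ^ r := by
  obtain ⟨g, hg⟩ := IsCyclic.exists_generator (α := Fˣ)
  obtain ⟨α, rfl⟩ := (Submonoid.mem_powers_iff a g).mp (mem_powers_iff_mem_zpowers.mpr (hg a))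
  obtain ⟨β, rfl⟩ := (Submonoid.mem_powers_iff b g).mp (mem_powers_iff_mem_zpowers.mpr (hg b))
  by_cases h : r ∣ α
  · obtain ⟨t, rfl⟩ := h
    exact Or.inl ⟨g ^ t, by rw [← pow_mul, mul_comm]⟩
  right
  haveI : Fact r.Prime := ⟨hr⟩
  have hα : (α : ZMod r) ≠ 0 := fun h0 => h ((ZMod.natCast_eq_zero_iff α r).mp h0)
  let j := ((β : ZMod r) * (α : ZMod r)⁻¹).val
  have hj : ((β : ZMod r)) = ((α * j : ℕ) : ZMod r) := by
    rw [Nat.cast_mul, ZMod.natCast_zmod_val, mul_comm (α : ZMod r), mul_assoc, inv_mul_cancel₀ hα, mul_one]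
  obtain ⟨t, ht⟩ : (r : ℤ) ∣ (β : ℤ) - (α * j : ℕ) := by
    rw [← ZMod.intCast_zmod_eq_zero_iff_dvd]
    push_cast
    rw [sub_eq_zero]
    exact_mod_cast hj
  refine ⟨j, g ^ t, ?_⟩
  rw [← zpow_natCast (g ^ t) r, ← _root_.zpow_mul, ← zpow_natCast g β, ← pow_mul, ← zpow_natCast g (α * j), ← _root_.zpow_add]
  congr 1
  linarith

theorem exists_stData (hn : 3 ≤ n) {K M : Subgroup (GL (Fin n) F)} (hM : NormalisedBy K M) (hZM : Zs ≤ M)
    (hMZ : M ≠ Zs) (hmin : ∀ N, NormalisedBy K N → Zs ≤ N → N ≤ M → N = Zs ∨ N = M)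
    (hfull : ∀ N, NormalisedBy K N → ¬ N ≤ Zs → Full N) (hab : ⁅M, M⁆ ≤ Zs) :
    ∃ (r : ℕ) (R : Subgroup (GL (Fin n) F)), STData K r R := by
  classical
  haveI : Nonempty (Fin n) := ⟨⟨0, by omega⟩⟩
  have hMnZ : ¬ M ≤ Zs := fun h => hMZ (le_antisymm h hZM)
  have hMfull : Full M := hfull M hM hMnZ
  have htw : ∀ a ∈ M, ∀ b ∈ M, ⁅a, b⁆ ∈ Zs := fun a ha b hb => hab (Subgroup.commutator_mem_commutator ha hb)
  have hnc : ∀ N : Subgroup (GL (Fin n) F), Full N → ∃ a ∈ N, ∃ b ∈ N, a * b ≠ b * a := by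
    intro N hN
    by_contra h
    push_neg at h
    have hall : ∀ X : Matrix (Fin n) (Fin n) F, ∃ c : F, X = c • 1 := by
      intro X
      refine hN.comm_scalar fun y hy => ?_
      have hX : X ∈ Submodule.span F (matrixSet N) := hN ▸ trivial
      induction hX using Submodule.span_induction with
      | mem a ha => obtain ⟨x, hx, rfl⟩ := ha; rw [← Units.val_mul, ← Units.val_mul, h x hx y hy]
      | zero => simp
      | add a b _ _ ha hb => rw [mul_add, add_mul, ha, hb]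
      | smul c a _ ha => rw [Matrix.mul_smul, Matrix.smul_mul, ha]
    obtain ⟨c, hc⟩ := hall (Matrix.single ⟨0, by omega⟩ ⟨1, by omega⟩ 1)
    have h1 := congrFun (congrFun hc ⟨0, by omega⟩) ⟨1, by omega⟩
    rw [Matrix.single_apply_same, Matrix.smul_apply, Matrix.one_apply_ne (by simp), smul_zero] at h1
    exact one_ne_zero h1
  let f : GL (Fin n) F →* GL (Fin n) F ⧸ Zs := QuotientGroup.mk' _
  have hf : ∀ {x}, f x = 1 ↔ x ∈ Zs := fun {x} => QuotientGroup.eq_one_iff x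
  have hfc : ∀ a ∈ M, ∀ b ∈ M, Commute (f a) (f b) := fun a ha b hb => by
    have := hf.mpr (htw a ha b hb)
    rw [map_commutatorElement, commutatorElement_eq_one_iff_mul_comm] at this
    exact this
  obtain ⟨r, x₀, hr, hx₀M, hx₀Z, hx₀r⟩ : ∃ r x₀, r.Prime ∧ x₀ ∈ M ∧ x₀ ∉ Zs ∧ x₀ ^ r ∈ Zs := by
    obtain ⟨x, hx, hxZ⟩ : ∃ x, x ∈ M ∧ x ∉ Zs := SetLike.not_le_iff_exists.mp hMnZ
    have hfx : f x ≠ 1 := fun h => hxZ (hf.mp h)
    obtain ⟨r, hr, t, ht⟩ := Nat.exists_prime_and_dvd (mt orderOf_eq_one_iff.mp hfx)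
    have h0 : 0 < orderOf (f x) := orderOf_pos _
    have ht0 : 0 < t := Nat.pos_of_mul_pos_left (ht ▸ h0)
    refine ⟨r, x ^ t, hr, pow_mem hx _, fun h => ?_, hf.mp ?_⟩
    · have := orderOf_dvd_of_pow_eq_one (by rw [← map_pow]; exact hf.mpr h : f x ^ t = 1)
      rw [ht] at this
      have := Nat.le_of_dvd ht0 this
      nlinarith [hr.two_le]
    · rw [map_pow, map_pow, ← pow_mul, mul_comm t r, ← ht, pow_orderOf_eq_one]
  let Mr : Subgroup (GL (Fin n) F) :=
    { carrier := {x | x ∈ M ∧ x ^ r ∈ Zs}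
      mul_mem' := fun {a b} ha hb => ⟨mul_mem ha.1 hb.1, hf.mp (by
        rw [map_pow, map_mul, (hfc a ha.1 b hb.1).mul_pow, ← map_pow, ← map_pow, hf.mpr ha.2, hf.mpr hb.2, one_mul])⟩
      one_mem' := ⟨one_mem M, by simp⟩
      inv_mem' := fun {a} ha => ⟨inv_mem ha.1, by rw [inv_pow]; exact inv_mem ha.2⟩ }
  have hMr : ∀ x ∈ M, x ^ r ∈ Zs := by
    have hn1 : NormalisedBy K Mr := fun g hg x hx => ⟨hM g hg x hx.1, by
      rw [conj_pow]; exact scalars_normal.conj_mem _ hx.2 g⟩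
    rcases hmin Mr hn1 (fun x hx => ⟨hZM hx, pow_mem hx r⟩) (fun x hx => hx.1) with h | h
    · exact absurd (h.le (show x₀ ∈ Mr from ⟨hx₀M, hx₀r⟩)) hx₀Z
    · exact fun x hx => (h.ge hx).2
  obtain ⟨x, hx, y, hy, hxy⟩ := hnc M hMfull
  have htr : ∀ a ∈ M, ∀ b ∈ M, ∃ c : Fˣ, c ^ r = 1 ∧ a * b = sc c * (b * a) := by
    intro a ha b hb
    obtain ⟨c, hc⟩ := exists_twist (htw a ha b hb)
    refine ⟨c, sc_injective (n := n) ?_, hc⟩
    have h1 := pow_twist hc r
    rw [scalars_comm (hMr a ha) b] at h1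
    rw [map_one]
    exact right_eq_mul.mp h1
  obtain ⟨c₀, hc₀, hc₀'⟩ := htr x hx y hy
  have hc₀1 : c₀ ≠ 1 := fun h => hxy (by rw [hc₀', h, map_one, one_mul])
  haveI : Fact r.Prime := ⟨hr⟩
  have hord : orderOf c₀ = r := orderOf_eq_prime hc₀ hc₀1
  have hdvd : r ∣ Fintype.card F - 1 := by
    have := orderOf_dvd_natCard c₀
    rwa [hord, Nat.card_eq_fintype_card, Fintype.card_units] at this
  have hrF : (r : F) ≠ 0 := by
    intro h0
    haveI : CharP F r := (CharP.charP_iff_prime_eq_zero hr).mpr h0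
    have hcF : (c₀ : F) ^ r = 1 := by rw [← Units.val_pow_eq_pow_val, hc₀, Units.val_one]
    have : ((c₀ : F) - 1) ^ r = 0 := by rw [sub_pow_char, hcF, one_pow, sub_self]
    exact hc₀1 (Units.ext (sub_eq_zero.mp ((pow_eq_zero_iff hr.ne_zero).mp this)))
  set z := r * Nat.gcd 2 r with hz
  have hrg : r ∣ r.choose 2 * Nat.gcd 2 r := by
    rcases hr.eq_two_or_odd with rfl | ho
    · decide
    · exact (hr.dvd_choose_self two_ne_zero (by have := hr.two_le; omega)).mul_right _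
  have hmulz : ∀ a ∈ M, ∀ b ∈ M, ∃ (u v : Fˣ) (d : Fˣ), sc u = a ^ r ∧ sc v = b ^ r ∧ d ^ Nat.gcd 2 r = 1 ∧
      sc (d * (u * v)) = (a * b) ^ r := by
    intro a ha b hb
    obtain ⟨c, hcr, hc⟩ := htr b hb a ha
    obtain ⟨u, hu⟩ := exists_sc (hMr a ha)
    obtain ⟨v, hv⟩ := exists_sc (hMr b hb)
    obtain ⟨t, ht⟩ := hrg
    refine ⟨u, v, c ^ r.choose 2, hu, hv, by rw [← pow_mul, ht, pow_mul, hcr, one_pow], ?_⟩
    rw [mul_pow_twist hc r, map_mul, map_mul, hu, hv]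
  let R : Subgroup (GL (Fin n) F) :=
    { carrier := {a | a ∈ M ∧ a ^ z = 1}
      mul_mem' := fun {a b} ha hb => ⟨mul_mem ha.1 hb.1, by
        obtain ⟨u, v, d, hu, hv, hd, he⟩ := hmulz a ha.1 b hb.1
        rw [hz, pow_mul, ← he, ← map_pow, mul_pow, mul_pow, hd, one_mul, map_mul, map_pow, map_pow, hu, hv,
          ← pow_mul, ← pow_mul, ← hz, ha.2, hb.2, one_mul]⟩
      one_mem' := ⟨one_mem M, one_pow _⟩
      inv_mem' := fun {a} ha => ⟨inv_mem ha.1, by rw [inv_pow, ha.2, inv_one]⟩ }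
  have hRn : NormalisedBy K R := fun g hg a ha => ⟨hM g hg a ha.1, by rw [conj_pow, ha.2]; group⟩
  have hRZ : ¬ R ≤ Zs := by
    obtain ⟨a, ha⟩ := exists_sc (hMr x hx)
    obtain ⟨b, hb⟩ := exists_sc (hMr y hy)
    suffices ∃ (w : GL (Fin n) F) (s d : Fˣ), w ∈ M ∧ w ∉ Zs ∧ d ^ Nat.gcd 2 r = 1 ∧ sc (d * s ^ r) = w ^ r by
      obtain ⟨w, s, d, hw, hwZ, hd, he⟩ := this
      intro h
      have hmem : sc s⁻¹ * w ∈ R := ⟨mul_mem (hZM (sc_mem _)) hw, by
        rw [hz, pow_mul, (show Commute (sc s⁻¹) w from sc_comm s⁻¹ w).mul_pow, ← he, ← map_pow, ← map_mul,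
          show s⁻¹ ^ r * (d * s ^ r) = d by rw [inv_pow, mul_left_comm, inv_mul_cancel, mul_one], ← map_pow, hd, map_one]⟩
      have := mul_mem (sc_mem (n := n) s) (h hmem)
      rw [← mul_assoc, ← map_mul, mul_inv_cancel, map_one, one_mul] at this
      exact hwZ this
    rcases root_or_pow hr a b with ⟨s, hs⟩ | ⟨j, s, hs⟩
    · refine ⟨x, s, 1, hx, fun h => hxy (scalars_comm h y), one_pow _, ?_⟩
      rw [one_mul, ← hs, ha]
    · obtain ⟨u, v, d, hu, hv, hd, he⟩ := hmulz (x ^ ((r - 1) * j)) (pow_mem hx _) y hy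
      refine ⟨x ^ ((r - 1) * j) * y, a ^ j * s, d, mul_mem (pow_mem hx _) hy, not_scalar_pair hxy _, hd, ?_⟩
      rw [← he]
      have hu' : u = a ^ ((r - 1) * j) := sc_injective (n := n) (by rw [hu, map_pow, ha, ← pow_mul, ← pow_mul, mul_comm])
      have hv' : v = b := sc_injective (n := n) (by rw [hv, hb])
      congr 2
      rw [hu', hv', hs, ← mul_assoc, ← pow_add, mul_pow, ← pow_mul]
      congr 2
      obtain ⟨k, rfl⟩ : ∃ k, r = k + 1 := ⟨r - 1, by have := hr.two_le; omega⟩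
      rw [Nat.add_sub_cancel]; ring
  have hRfull : Full R := hfull R hRn hRZ
  refine ⟨r, R, hr, hRn, hRfull, fun a ha => ha.2, fun u hu => ⟨hZM (sc_mem u), by rw [← map_pow, hu, map_one]⟩,
    fun a ha b hb => htw a ha.1 b hb.1, hnc R hRfull, hdvd, hrF, fun A hAR hAn hAc => ?_⟩
  by_contra hAZ
  have hsup : A ⊔ Zs = M := (hmin _ hAn.sup_scalars le_sup_right
    (sup_le (hAR.trans fun a ha => ha.1) hZM)).resolve_left fun h => hAZ (le_sup_left.trans h.le)
  refine hxy ?_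
  rw [← hsup, ← SetLike.mem_coe, Subgroup.mul_normal] at hx hy
  obtain ⟨a, ha', s, hs, rfl⟩ := hx
  obtain ⟨b, hb', t, ht, rfl⟩ := hy
  have h1 : Commute (a * s) (b * t) :=
    ((show Commute a b from hAc a ha' b hb').mul_right (scalars_comm ht a).symm).mul_left (scalars_comm hs _)
  exact h1.eq

theorem STData.symplecticType {K R : Subgroup (GL (Fin n) F)} {r : ℕ} (hKR : NormalisedBy K R)
    (h : STData K r R) : IsSymplecticTypeGroup r R := by
  have hpow : ∀ a : R, a ^ (r * Nat.gcd 2 r) = 1 := fun a => Subtype.ext (h.pow a a.2)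
  refine ⟨h.prime, fun a => ?_, fun A hA hAc => ?_, ?_⟩
  · rcases h.prime.eq_two_or_odd with rfl | ho
    · exact ⟨2, hpow a⟩
    · refine ⟨1, ?_⟩
      have := hpow a
      rwa [show Nat.gcd 2 r = 1 from (Nat.coprime_primes Nat.prime_two h.prime).mpr (by omega), mul_one,
        ← pow_one r] at this
  · let A' : Subgroup (GL (Fin n) F) := A.map R.subtype
    have hA'R : A' ≤ R := Subgroup.map_subtype_le _
    have hA'n : NormalisedBy K A' := by
      intro g hg y hy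
      obtain ⟨a, ha, rfl⟩ := Subgroup.mem_map.mp hy
      have hg' : ∀ b ∈ R, g⁻¹ * b * g ∈ R := fun b hb => by simpa using hKR g⁻¹ (inv_mem hg) b hb
      let φ : R ≃* R :=
        { toFun := fun b => ⟨g * b * g⁻¹, hKR g hg b b.2⟩
          invFun := fun b => ⟨g⁻¹ * b * g, hg' b b.2⟩
          left_inv := fun b => Subtype.ext (by show g⁻¹ * (g * _ * g⁻¹) * g = _; group)
          right_inv := fun b => Subtype.ext (by show g * (g⁻¹ * _ * g) * g⁻¹ = _; group)
          map_mul' := fun b b' => Subtype.ext (by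
            show g * (b * b' : GL (Fin n) F) * g⁻¹ = g * (b : GL (Fin n) F) * g⁻¹ * (g * b' * g⁻¹); group) }
      refine Subgroup.mem_map.mpr ⟨φ a, ?_, rfl⟩
      have := hA.fixed φ
      rw [← this] at ha
      exact ha
    have hA'c : ∀ a ∈ A', ∀ b ∈ A', a * b = b * a := by
      intro a ha b hb
      obtain ⟨a', ha', rfl⟩ := Subgroup.mem_map.mp ha
      obtain ⟨b', hb', rfl⟩ := Subgroup.mem_map.mp hb
      exact congrArg (fun w : A => ((w : R) : GL (Fin n) F)) (hAc.is_comm.comm ⟨a', ha'⟩ ⟨b', hb'⟩)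
    have hscal := h.maxab A' hA'R hA'n hA'c
    rcases Nat.eq_zero_or_pos n with rfl | hn
    · haveI : Subsingleton (GL (Fin 0) F) := ⟨fun a b => Units.ext (Subsingleton.elim _ _)⟩
      exact isCyclic_of_subsingleton
    have hsub : ∀ a : A, ∃ u : Fˣ, sc u = ((a : R) : GL (Fin n) F) := fun a =>
      exists_sc (hscal (Subgroup.mem_map_of_mem R.subtype a.2))
    choose u hu using hsub
    haveI : Nonempty (Fin n) := ⟨⟨0, hn⟩⟩
    let φ : A →* Fˣ := MonoidHom.mk' u fun a b => sc_injective (n := n) (by rw [map_mul, hu, hu, hu]; rfl)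
    refine isCyclic_of_injective φ fun a b hab => Subtype.ext (Subtype.ext ?_)
    rw [← hu a, ← hu b]; exact congrArg sc hab
  · obtain ⟨a, ha, b, hb, hab⟩ := h.nonab
    have hd := Monoid.exponent_dvd_of_forall_pow_eq_one hpow
    have h1 : Monoid.exponent R ≠ 1 := fun h1 => hab (by
      have := Monoid.pow_exponent_eq_one (⟨a, ha⟩ : R)
      rw [h1, pow_one] at this
      rw [show a = 1 from congrArg Subtype.val this, one_mul, mul_one])
    rcases h.prime.eq_two_or_odd with rfl | ho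
    · rw [Nat.gcd_self] at hd ⊢
      obtain ⟨k, hk, he⟩ := (Nat.dvd_prime_pow Nat.prime_two (m := 2)).mp (by simpa using hd)
      rcases (show k = 0 ∨ k = 1 ∨ k = 2 by omega) with rfl | rfl | rfl
      · exact absurd (by simpa using he) h1
      · refine absurd ?_ hab
        have hsq : ∀ w : R, w * w = 1 := fun w => by
          have := Monoid.pow_exponent_eq_one w
          rwa [he, pow_one, pow_two] at this
        have hi : ∀ w : R, w⁻¹ = w := fun w => inv_eq_of_mul_eq_one_right (hsq w)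
        have hcm : (⟨a, ha⟩ : R) * ⟨b, hb⟩ = (⟨b, hb⟩ : R) * ⟨a, ha⟩ := by
          rw [← hi ((⟨a, ha⟩ : R) * ⟨b, hb⟩), _root_.mul_inv_rev, hi, hi]
        exact congrArg Subtype.val hcm
      · simpa using he
    · rw [show Nat.gcd 2 r = 1 from (Nat.coprime_primes Nat.prime_two h.prime).mpr (by omega), mul_one] at hd ⊢
      exact ((Nat.dvd_prime h.prime).mp hd).resolve_left h1

end Cfsg.Agent.GeomClasses.Asch
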